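import Mathlib

set_option autoImplicit false
set_option linter.style.haveILetI false

open scoped IsMulCommutative

/-!
# The abelian case of Hall--Higman Theorem B, by averaging

`avg_lemma`: an abelian group `Q` and an element `x`, acting on a commutative group `U`; if the norm
`v ↦ ∏_{i<k} x^i v` of `x` vanishes on `U`, then every `w ∈ Q` which is a commutator `[u, x^i]` for every
`0 < i < k` satisfies `(w v / v)^{|Q|} = 1`.
-/

namespace Cfsg.Agent.Lib.Helper67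

theorem avg_lemma {Γ U : Type*} [Group Γ] [CommGroup U] (σ : Γ →* MulAut U) (Q : Subgroup Γ) [Finite Q]
    (hQc : ∀ a ∈ Q, ∀ b ∈ Q, a * b = b * a) (x : Γ) (k : ℕ)
    (hN : ∀ v : U, ∏ i ∈ Finset.range (k + 1), σ (x ^ i) v = 1)
    (w : Γ) (hwQ : w ∈ Q)
    (hw : ∀ i, 0 < i → i < k + 1 → ∃ u ∈ Q, u * x ^ i * u⁻¹ * (x ^ i)⁻¹ = w) (v : U) :
    (σ w v / v) ^ Nat.card Q = 1 := by
  classical
  letI : Fintype Q := Fintype.ofFinite Q
  have h1 : ∀ u : Q, ∏ i ∈ Finset.range (k + 1), σ ((u : Γ) * x ^ i * (u : Γ)⁻¹) v = 1 := by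
    intro u
    have h2 := congrArg (σ (u : Γ)) (hN (σ (u : Γ)⁻¹ v))
    rw [map_prod, map_one] at h2
    rw [← h2]
    apply Finset.prod_congr rfl
    intro i _
    simp [map_mul, MulAut.mul_apply]
  have h2 : ∏ i ∈ Finset.range (k + 1), ∏ u : Q, σ ((u : Γ) * x ^ i * (u : Γ)⁻¹) v = 1 := by
    rw [Finset.prod_comm]
    exact Finset.prod_eq_one (fun u _ => h1 u)
  have h3 : ∀ i, 0 < i → i < k + 1 → σ w (∏ u : Q, σ ((u : Γ) * x ^ i * (u : Γ)⁻¹) v)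
      = ∏ u : Q, σ ((u : Γ) * x ^ i * (u : Γ)⁻¹) v := by
    intro i hi hik
    obtain ⟨u0, hu0, hu0w⟩ := hw i hi hik
    rw [map_prod]
    apply Fintype.prod_equiv (Equiv.mulRight (⟨u0, hu0⟩ : Q))
    intro u
    have e : (((Equiv.mulRight (⟨u0, hu0⟩ : Q)) u : Q) : Γ) = (u : Γ) * u0 := rfl
    rw [e, ← MulAut.mul_apply, ← map_mul]
    congr 2
    have hc := hQc w hwQ u u.2
    calc w * ((u : Γ) * x ^ i * (u : Γ)⁻¹) = (u : Γ) * w * x ^ i * (u : Γ)⁻¹ := by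
          rw [← mul_assoc, ← mul_assoc, hc]
      _ = (u : Γ) * u0 * x ^ i * ((u : Γ) * u0)⁻¹ := by
          rw [← hu0w]; group
  rw [Finset.prod_range_succ'] at h2
  have h4 : σ w (∏ i ∈ Finset.range k, ∏ u : Q, σ ((u : Γ) * x ^ (i + 1) * (u : Γ)⁻¹) v)
      = ∏ i ∈ Finset.range k, ∏ u : Q, σ ((u : Γ) * x ^ (i + 1) * (u : Γ)⁻¹) v := by
    rw [map_prod]
    apply Finset.prod_congr rfl
    intro i hi
    exact h3 (i + 1) (Nat.succ_pos i) (Nat.succ_lt_succ (Finset.mem_range.1 hi))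
  have h5 : ∏ u : Q, σ ((u : Γ) * x ^ 0 * (u : Γ)⁻¹) v = v ^ Nat.card Q := by
    simp [Nat.card_eq_fintype_card]
  rw [h5] at h2
  have h6 := congrArg (σ w) h2
  rw [map_mul, h4, map_one, map_pow, ← h2] at h6
  rw [div_pow, div_eq_one]
  exact mul_left_cancel h6

/-- for `g` normalizing the abelian group `Q`, a commutator `[u, g^j]` is a commutator `[u', g]`. -/
theorem comm_pow_lemma {Γ : Type*} [Group Γ] (Q : Subgroup Γ) (hQc : ∀ a ∈ Q, ∀ b ∈ Q, a * b = b * a)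
    (g : Γ) (hg : ∀ a ∈ Q, g * a * g⁻¹ ∈ Q) (j : ℕ) (u : Γ) (hu : u ∈ Q) :
    ∃ u' ∈ Q, u' * g * u'⁻¹ * g⁻¹ = u * g ^ j * u⁻¹ * (g ^ j)⁻¹ := by
  induction j with
  | zero => exact ⟨1, Q.one_mem, by simp⟩
  | succ j ih =>
    obtain ⟨u1, hu1, he⟩ := ih
    obtain ⟨a, ha⟩ : ∃ a, a = g * u1 * g⁻¹ := ⟨_, rfl⟩
    have haQ : a ∈ Q := ha ▸ hg u1 hu1
    refine ⟨u * a, Q.mul_mem hu haQ, ?_⟩
    have hc : a * g * a⁻¹ * g⁻¹ ∈ Q := by
      have : a * g * a⁻¹ * g⁻¹ = a * (g * a⁻¹ * g⁻¹) := by group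
      rw [this]
      exact Q.mul_mem haQ (hg _ (Q.inv_mem haQ))
    have hd : g * u⁻¹ * g⁻¹ ∈ Q := hg _ (Q.inv_mem hu)
    have hcd := hQc _ hc _ hd
    have e1 : u * g ^ (j + 1) * u⁻¹ * (g ^ (j + 1))⁻¹
        = u * (g * u⁻¹ * g⁻¹) * (g * (u * g ^ j * u⁻¹ * (g ^ j)⁻¹) * g⁻¹) := by
      rw [pow_succ']; group
    have e2 : g * (u1 * g * u1⁻¹ * g⁻¹) * g⁻¹ = a * g * a⁻¹ * g⁻¹ := by
      rw [ha]; group
    rw [e1, ← he, e2, mul_assoc u (g * u⁻¹ * g⁻¹), ← hcd]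
    group

theorem conj_pow_mem {Γ : Type*} [Group Γ] (Q : Subgroup Γ) (x : Γ) (hx : ∀ a ∈ Q, x * a * x⁻¹ ∈ Q)
    (j : ℕ) : ∀ a ∈ Q, x ^ j * a * (x ^ j)⁻¹ ∈ Q := by
  induction j with
  | zero => intro a ha; simpa using ha
  | succ j ih =>
    intro a ha
    have : x ^ (j + 1) * a * (x ^ (j + 1))⁻¹ = x * (x ^ j * a * (x ^ j)⁻¹) * x⁻¹ := by
      rw [pow_succ']; group
    rw [this]
    exact hx _ (ih a ha)

theorem exists_pow_eq_pow {Γ : Type*} [Group Γ] {p : ℕ} (hp : p.Prime) (x : Γ) (n : ℕ)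
    (hx : x ^ p ^ (n + 1) = 1) (i : ℕ) (hi : 0 < i) (hin : i < p ^ (n + 1)) :
    ∃ j, (x ^ i) ^ j = x ^ p ^ n := by
  obtain ⟨a, b, hb, rfl⟩ := Nat.exists_eq_pow_mul_and_not_dvd hi.ne' p hp.ne_one
  have hbpos : 0 < b := Nat.pos_of_ne_zero (by rintro rfl; exact hb (dvd_zero p))
  have ha : a < n + 1 := by
    have h1 : p ^ a < p ^ (n + 1) := lt_of_le_of_lt (Nat.le_mul_of_pos_right _ hbpos) hin
    exact (Nat.pow_lt_pow_iff_right hp.one_lt).1 h1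
  have hcop : Nat.Coprime b p := ((Nat.Prime.coprime_iff_not_dvd hp).2 hb).symm
  obtain ⟨b', hb'⟩ := Nat.exists_mul_mod_eq_one_of_coprime hcop hp.one_lt
  refine ⟨p ^ (n - a) * b', ?_⟩
  have h2 : p ^ a * b * (p ^ (n - a) * b') = p ^ (n + 1) * (b * b' / p) + p ^ n := by
    have h3 : b * b' = p * (b * b' / p) + 1 := by
      have := Nat.div_add_mod (b * b') p
      rw [hb'.2] at this
      exact this.symm
    have h4 : p ^ a * p ^ (n - a) = p ^ n := by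
      rw [← pow_add]; congr 1; omega
    calc p ^ a * b * (p ^ (n - a) * b') = (p ^ a * p ^ (n - a)) * (b * b') := by ring
      _ = p ^ n * (p * (b * b' / p) + 1) := by rw [h4, ← h3]
      _ = p ^ (n + 1) * (b * b' / p) + p ^ n := by ring
  rw [← pow_mul, h2, pow_add, pow_mul, hx, one_pow, one_mul]

/-- **Abelian case of Hall--Higman Theorem B** in group form: `V` an abelian normal `p`-subgroup, `Q` an abelian
`p'`-subgroup normalized by `x`, `x ^ p ^ (n+1) = 1`, and some commutator `[u, x ^ p ^ n]`, `u ∈ Q`, does not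
centralize `V`. Then `(v x) ^ p ^ (n+1) ≠ 1` for some `v ∈ V` (the norm of `x` does not vanish on `V`). -/
theorem exists_pow_ne_one {X : Type*} [Group X] [Finite X] {p : ℕ} (hp : p.Prime) (V : Subgroup X)
    [V.Normal] (hVc : ∀ a ∈ V, ∀ b ∈ V, a * b = b * a) (hVp : IsPGroup p V)
    (Q : Subgroup X) (hQc : ∀ a ∈ Q, ∀ b ∈ Q, a * b = b * a) (hQp : (Nat.card Q).Coprime p)
    (x : X) (hxQ : ∀ a ∈ Q, x * a * x⁻¹ ∈ Q) (n : ℕ) (hx : x ^ p ^ (n + 1) = 1)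
    (u : X) (hu : u ∈ Q) (a : X) (ha : a ∈ V)
    (hne : (u * x ^ p ^ n * u⁻¹ * (x ^ p ^ n)⁻¹) * a ≠ a * (u * x ^ p ^ n * u⁻¹ * (x ^ p ^ n)⁻¹)) :
    ∃ v ∈ V, (v * x) ^ p ^ (n + 1) ≠ 1 := by
  by_contra hcon
  push Not at hcon
  haveI : IsMulCommutative V := ⟨⟨fun a b => Subtype.ext (hVc a a.2 b b.2)⟩⟩
  obtain ⟨σ, hσ⟩ : ∃ σ : X →* MulAut V, ∀ g (v : V), ((σ g v : V) : X) = g * v * g⁻¹ :=
    ⟨MulAut.conjNormal, fun g v => MulAut.conjNormal_apply g v⟩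
  have key : ∀ (v : V) (k : ℕ), ((v : X) * x) ^ k
      = ((∏ i ∈ Finset.range k, σ (x ^ i) v : V) : X) * x ^ k := by
    intro v k
    induction k with
    | zero => simp
    | succ k ih =>
      rw [pow_succ, ih, Finset.prod_range_succ, Subgroup.coe_mul, hσ, pow_succ]
      group
  obtain ⟨k, hk⟩ : ∃ k, p ^ (n + 1) = k + 1 :=
    Nat.exists_eq_succ_of_ne_zero (pow_ne_zero _ hp.ne_zero)
  have hN : ∀ v : V, ∏ i ∈ Finset.range (k + 1), σ (x ^ i) v = 1 := by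
    intro v
    have h1 := key v (p ^ (n + 1))
    rw [hcon v v.2, hx, mul_one, hk] at h1
    exact Subtype.ext h1.symm
  obtain ⟨w, hw⟩ : ∃ w, w = u * x ^ p ^ n * u⁻¹ * (x ^ p ^ n)⁻¹ := ⟨_, rfl⟩
  rw [← hw] at hne
  have hwQ : w ∈ Q := by
    have : w = u * (x ^ p ^ n * u⁻¹ * (x ^ p ^ n)⁻¹) := by rw [hw]; group
    rw [this]
    exact Q.mul_mem hu (conj_pow_mem Q x hxQ _ _ (Q.inv_mem hu))
  have hwi : ∀ i, 0 < i → i < k + 1 → ∃ u' ∈ Q, u' * x ^ i * u'⁻¹ * (x ^ i)⁻¹ = w := by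
    intro i hi hik
    obtain ⟨j, hj⟩ := exists_pow_eq_pow hp x n hx i hi (hk ▸ hik)
    obtain ⟨u', hu', he⟩ := comm_pow_lemma Q hQc (x ^ i) (conj_pow_mem Q x hxQ i) j u hu
    exact ⟨u', hu', by rw [he, hj, hw]⟩
  have h1 := avg_lemma σ Q hQc x k hN w hwQ hwi ⟨a, ha⟩
  obtain ⟨j, hj⟩ := hVp (σ w ⟨a, ha⟩ / ⟨a, ha⟩)
  have h2 : orderOf (σ w ⟨a, ha⟩ / ⟨a, ha⟩) = 1 := by
    have d1 := orderOf_dvd_of_pow_eq_one h1
    have d2 := orderOf_dvd_of_pow_eq_one hj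
    exact Nat.eq_one_of_dvd_coprimes (Nat.Coprime.pow_right j hQp) d1 d2
  rw [orderOf_eq_one_iff, div_eq_one] at h2
  have h3 := congrArg Subtype.val h2
  rw [hσ] at h3
  apply hne
  have h4 : w * a * w⁻¹ = a := h3
  calc w * a = w * a * w⁻¹ * w := by group
    _ = a * w := by rw [h4]

end Cfsg.Agent.Lib.Helper67
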