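import Mathlib
import Cfsg.Agent.Lib.Helper61.ONSDefs

set_option autoImplicit false

namespace Cfsg.Agent.Lib.Helper67.ONS

open Cfsg.Agent.Lib.Helper61.ONS

universe u v

variable {T : Type u} [Group T] [IsSimpleGroup T] {m : ℕ}

/-- CEN -/
theorem center_trivial (hT : ¬ IsMulCommutative T) (t : T) (h : ∀ s : T, s * t = t * s) : t = 1 := by
  have ht : t ∈ Subgroup.center T := Subgroup.mem_center_iff.2 h
  rcases (inferInstance : (Subgroup.center T).Normal).eq_bot_or_eq_top with h0 | h0
  · rw [h0] at ht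
    exact Subgroup.mem_bot.1 ht
  · exfalso
    apply hT
    refine ⟨⟨fun a b => ?_⟩⟩
    have hb : b ∈ Subgroup.center T := by rw [h0]; trivial
    exact Subgroup.mem_center_iff.1 hb a

end Cfsg.Agent.Lib.Helper67.ONS
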