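import Mathlib
import Cfsg.Agent.Lib.Helper61.ONSDefs
import Cfsg.Agent.Lib.Helper67.ONSCen

set_option autoImplicit false

namespace Cfsg.Agent.Lib.Helper67.ONS

open Cfsg.Agent.Lib.Helper61.ONS

universe u v

variable {T : Type u} [Group T] [IsSimpleGroup T] {m : ℕ}

/-- the `i`-th factor. -/
def fac (T : Type u) [Group T] {m : ℕ} (i : Fin m) : Subgroup (Fin m → T) :=
  (MonoidHom.mulSingle (fun _ : Fin m => T) i).range

omit [IsSimpleGroup T] in
theorem mem_fac {i : Fin m} {f : Fin m → T} : f ∈ fac T i ↔ ∃ t, Pi.mulSingle i t = f := Iff.rfl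

omit [IsSimpleGroup T] in
theorem fac_normal (i : Fin m) : (fac T i).Normal := by
  constructor
  rintro _ ⟨t, rfl⟩ g
  refine ⟨g i * t * (g i)⁻¹, ?_⟩
  funext k
  by_cases hk : k = i
  · subst hk
    simp
  · simp [Pi.mulSingle_eq_of_ne hk]

theorem fac_ne_bot (i : Fin m) : fac T i ≠ ⊥ := by
  intro h
  obtain ⟨s, hs⟩ := exists_ne (1 : T)
  have : Pi.mulSingle i s ∈ fac T i := ⟨s, rfl⟩
  rw [h, Subgroup.mem_bot] at this
  apply hs
  have h2 := congrFun this i
  simpa using h2

theorem fac_le_iff {i j : Fin m} (h : fac T i ≤ fac T j) : i = j := by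
  by_contra hne
  obtain ⟨s, hs⟩ := exists_ne (1 : T)
  obtain ⟨t, ht⟩ := mem_fac.1 (h (⟨s, rfl⟩ : Pi.mulSingle i s ∈ fac T i))
  have h2 := congrFun ht i
  rw [Pi.mulSingle_eq_same, Pi.mulSingle_eq_of_ne hne] at h2
  exact hs h2.symm

/-- every nontrivial normal subgroup contains a factor. -/
theorem exists_fac_le (hT : ¬ IsMulCommutative T) (M : Subgroup (Fin m → T)) (hM : M.Normal)
    (hne : M ≠ ⊥) : ∃ i, fac T i ≤ M := by
  classical
  obtain ⟨f, hf, hf1⟩ : ∃ f : Fin m → T, f ∈ M ∧ f ≠ 1 := by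
    by_contra hcon
    push Not at hcon
    exact hne ((Subgroup.eq_bot_iff_forall _).2 hcon)
  obtain ⟨i, hi⟩ : ∃ i, f i ≠ 1 := by
    by_contra hcon
    push Not at hcon
    exact hf1 (funext hcon)
  obtain ⟨t, ht⟩ : ∃ t, t * f i ≠ f i * t := by
    by_contra hcon
    push Not at hcon
    exact hi (center_trivial hT _ hcon)
  refine ⟨i, ?_⟩
  have hc : f * (Pi.mulSingle i t * f⁻¹ * (Pi.mulSingle i t)⁻¹) ∈ M :=
    M.mul_mem hf (hM.conj_mem _ (M.inv_mem hf) _)
  have hce : f * (Pi.mulSingle i t * f⁻¹ * (Pi.mulSingle i t)⁻¹) =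
      Pi.mulSingle i (f i * (t * (f i)⁻¹ * t⁻¹)) := by
    funext k
    by_cases hk : k = i
    · subst hk
      simp
    · simp [Pi.mulSingle_eq_of_ne hk]
  rw [hce] at hc
  have hN : (M.comap (MonoidHom.mulSingle (fun _ : Fin m => T) i)).Normal := hM.comap _
  rcases hN.eq_bot_or_eq_top with h0 | h0
  · exfalso
    have : f i * (t * (f i)⁻¹ * t⁻¹) ∈ M.comap (MonoidHom.mulSingle (fun _ : Fin m => T) i) := hc
    rw [h0, Subgroup.mem_bot] at this
    apply ht
    have h3 : f i * t * (f i)⁻¹ * t⁻¹ = 1 := by rw [← this]; group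
    rw [mul_inv_eq_one, mul_inv_eq_iff_eq_mul] at h3
    exact h3.symm
  · rintro _ ⟨s, rfl⟩
    have : s ∈ M.comap (MonoidHom.mulSingle (fun _ : Fin m => T) i) := by rw [h0]; trivial
    exact this

theorem exists_map_fac (hT : ¬ IsMulCommutative T) (φ : (Fin m → T) ≃* (Fin m → T)) (i : Fin m) :
    ∃ j, (fac T i).map φ.toMonoidHom = fac T j := by
  have hn1 : ((fac T i).map φ.toMonoidHom).Normal := (fac_normal i).map _ φ.surjective
  have hne1 : (fac T i).map φ.toMonoidHom ≠ ⊥ := by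
    intro h
    rw [Subgroup.map_eq_bot_iff_of_injective _ φ.injective] at h
    exact fac_ne_bot i h
  obtain ⟨j, hj⟩ := exists_fac_le hT _ hn1 hne1
  have hn2 : ((fac T j).map φ.symm.toMonoidHom).Normal := (fac_normal j).map _ φ.symm.surjective
  have hne2 : (fac T j).map φ.symm.toMonoidHom ≠ ⊥ := by
    intro h
    rw [Subgroup.map_eq_bot_iff_of_injective _ φ.symm.injective] at h
    exact fac_ne_bot j h
  obtain ⟨l, hl⟩ := exists_fac_le hT _ hn2 hne2
  have hle : (fac T j).map φ.symm.toMonoidHom ≤ fac T i := by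
    rintro _ ⟨y, hy, rfl⟩
    obtain ⟨x, hx, hxy⟩ := hj hy
    have : φ.symm.toMonoidHom y = x := by
      rw [← hxy]
      exact φ.symm_apply_apply x
    rw [this]; exact hx
  have hli : l = i := fac_le_iff (hl.trans hle)
  subst hli
  refine ⟨j, le_antisymm ?_ hj⟩
  rintro _ ⟨x, hx, rfl⟩
  obtain ⟨y, hy, hyx⟩ := hl hx
  have : φ.toMonoidHom x = y := by
    rw [← hyx]
    exact φ.apply_symm_apply y
  rw [this]; exact hy

/-- AUT -/
theorem aut_pi (hT : ¬ IsMulCommutative T) (φ : (Fin m → T) ≃* (Fin m → T)) :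
    ∃ (π : Equiv.Perm (Fin m)) (α : Fin m → (T ≃* T)), Spec φ π α := by
  classical
  choose p hp using exists_map_fac hT φ
  have hpinj : Function.Injective p := by
    intro i i' h
    have h1 : (fac T i).map φ.toMonoidHom = (fac T i').map φ.toMonoidHom := by rw [hp, hp, h]
    have h2 := Subgroup.map_injective φ.injective h1
    exact fac_le_iff (le_of_eq h2)
  have hpbij : Function.Bijective p := Finite.injective_iff_bijective.1 hpinj
  let a₀ : Fin m → (T →* T) := fun i =>
    (Pi.evalMonoidHom (fun _ : Fin m => T) (p i)).comp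
      (φ.toMonoidHom.comp (MonoidHom.mulSingle (fun _ : Fin m => T) i))
  have ha₀ : ∀ i t, a₀ i t = φ (Pi.mulSingle i t) (p i) := fun i t => rfl
  have hform : ∀ i t, φ (Pi.mulSingle i t) = Pi.mulSingle (p i) (a₀ i t) := by
    intro i t
    have : φ (Pi.mulSingle i t) ∈ fac T (p i) := by
      rw [← hp]
      exact ⟨_, ⟨t, rfl⟩, rfl⟩
    obtain ⟨s, hs⟩ := mem_fac.1 this
    rw [ha₀, ← hs, Pi.mulSingle_eq_same]
  have hbij : ∀ i, Function.Bijective (a₀ i) := by
    intro i
    constructor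
    · rw [injective_iff_map_eq_one]
      intro t ht
      have h1 := hform i t
      rw [ht, Pi.mulSingle_one] at h1
      have h2 : Pi.mulSingle i t = (1 : Fin m → T) := (map_eq_one_iff φ φ.injective).1 h1
      have h3 := congrFun h2 i
      simpa using h3
    · intro s
      have : Pi.mulSingle (p i) s ∈ (fac T i).map φ.toMonoidHom := by
        rw [hp]; exact ⟨s, rfl⟩
      obtain ⟨_, ⟨t, rfl⟩, ht⟩ := this
      refine ⟨t, ?_⟩
      have ht' : φ (Pi.mulSingle i t) = Pi.mulSingle (p i) s := ht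
      rw [ha₀, ht', Pi.mulSingle_eq_same]
  refine ⟨Equiv.ofBijective p hpbij, fun i => MulEquiv.ofBijective (a₀ i) (hbij i), ?_⟩
  intro f i
  show φ f (p i) = a₀ i (f i)
  set g : Fin m → T := Function.update f i 1 with hg
  have hfg : f = Pi.mulSingle i (f i) * g := by
    funext k
    by_cases hk : k = i
    · subst hk
      simp [hg]
    · simp [hg, Pi.mulSingle_eq_of_ne hk, Function.update_of_ne hk]
  have hcomm : ∀ t, g * Pi.mulSingle i t = Pi.mulSingle i t * g := by
    intro t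
    funext k
    by_cases hk : k = i
    · subst hk
      simp [hg]
    · simp [Pi.mulSingle_eq_of_ne hk]
  have hg1 : φ g (p i) = 1 := by
    apply center_trivial hT
    intro s
    obtain ⟨t, ht⟩ := (hbij i).2 s
    have h1 := congrArg φ (hcomm t)
    rw [map_mul, map_mul, hform, ht] at h1
    have h2 := congrFun h1 (p i)
    simp only [Pi.mul_apply, Pi.mulSingle_eq_same] at h2
    exact h2.symm
  conv_lhs => rw [hfg]
  rw [map_mul, Pi.mul_apply, hg1, mul_one, ha₀]

end Cfsg.Agent.Lib.Helper67.ONS
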