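import Mathlib
import Cfsg.Agent.Lib.Helper61.ONSDefs

set_option autoImplicit false

namespace Cfsg.Agent.Lib.Helper67.ONS

open Cfsg.Agent.Lib.Helper61.ONS

universe u v

variable {T : Type u} [Group T] [IsSimpleGroup T] {m : ℕ}

/-- SC1 -/
theorem exists_iso_of_linked (X : Subgroup (Fin m → T)) (hX : Subdirect X) (i j : Fin m)
    (h : Linked X i j) : ∃ β : T ≃* T, ∀ x ∈ X, x j = β (x i) := by
  classical
  let xs : T → (Fin m → T) := fun t => (hX i t).choose
  have hxs : ∀ t, xs t ∈ X ∧ xs t i = t := fun t => (hX i t).choose_spec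
  have key : ∀ x ∈ X, x j = xs (x i) j := by
    intro x hx
    have h1 : x * (xs (x i))⁻¹ ∈ X := X.mul_mem hx (X.inv_mem (hxs _).1)
    have h2 : (x * (xs (x i))⁻¹) i = 1 := by
      rw [Pi.mul_apply, Pi.inv_apply, (hxs _).2, mul_inv_cancel]
    have h3 := h _ h1 h2
    rw [Pi.mul_apply, Pi.inv_apply, mul_inv_eq_one] at h3
    exact h3
  let β₀ : T →* T := MonoidHom.mk' (fun t => xs t j) (by
    intro s t
    have h1 : xs s * xs t ∈ X := X.mul_mem (hxs s).1 (hxs t).1
    have h2 := key _ h1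
    rw [Pi.mul_apply, Pi.mul_apply, (hxs s).2, (hxs t).2] at h2
    exact h2.symm)
  have hβ : ∀ x ∈ X, x j = β₀ (x i) := key
  have hsurj : Function.Surjective β₀ := by
    intro s
    obtain ⟨x, hx, hxj⟩ := hX j s
    exact ⟨x i, by rw [← hβ x hx, hxj]⟩
  have hinj : Function.Injective β₀ := by
    rw [← MonoidHom.ker_eq_bot_iff]
    rcases (inferInstance : β₀.ker.Normal).eq_bot_or_eq_top with h0 | h0
    · exact h0
    · exfalso
      obtain ⟨s, hs⟩ := exists_ne (1 : T)
      obtain ⟨t, ht⟩ := hsurj s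
      apply hs
      rw [← ht]
      have : t ∈ β₀.ker := by rw [h0]; trivial
      exact this
  exact ⟨MulEquiv.ofBijective β₀ ⟨hinj, hsurj⟩, hβ⟩

end Cfsg.Agent.Lib.Helper67.ONS
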