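import Mathlib
import Cfsg.Agent.Lib.Helper61.ONSDefs
import Cfsg.Agent.Lib.Helper67.ONSCen

set_option autoImplicit false

namespace Cfsg.Agent.Lib.Helper67.ONS

open Cfsg.Agent.Lib.Helper61.ONS

universe u v

variable {T : Type u} [Group T] [IsSimpleGroup T] {m : ℕ}

/-- elements of `X` trivial on `S`. -/
def sc2B (X : Subgroup (Fin m → T)) (S : Finset (Fin m)) : Subgroup (Fin m → T) where
  carrier := {x | x ∈ X ∧ ∀ s ∈ S, x s = 1}
  mul_mem' := by
    rintro a b ⟨ha, ha'⟩ ⟨hb, hb'⟩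
    exact ⟨X.mul_mem ha hb, fun s hs => by rw [Pi.mul_apply, ha' s hs, hb' s hs, one_mul]⟩
  one_mem' := ⟨X.one_mem, fun _ _ => rfl⟩
  inv_mem' := by
    rintro a ⟨ha, ha'⟩
    exact ⟨X.inv_mem ha, fun s hs => by rw [Pi.inv_apply, ha' s hs, inv_one]⟩

omit [IsSimpleGroup T] in
theorem mem_sc2B {X : Subgroup (Fin m → T)} {S : Finset (Fin m)} {x : Fin m → T} :
    x ∈ sc2B X S ↔ x ∈ X ∧ ∀ s ∈ S, x s = 1 := Iff.rfl

omit [IsSimpleGroup T] in
theorem sc2_normal (X : Subgroup (Fin m → T)) (hX : Subdirect X) (S : Finset (Fin m)) (r : Fin m) :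
    ((sc2B X S).map (Pi.evalMonoidHom (fun _ : Fin m => T) r)).Normal := by
  constructor
  rintro _ ⟨b, hb, rfl⟩ t
  obtain ⟨x, hx, hxr⟩ := hX r t
  refine ⟨x * b * x⁻¹, ⟨X.mul_mem (X.mul_mem hx hb.1) (X.inv_mem hx), ?_⟩, ?_⟩
  · intro s hs
    rw [Pi.mul_apply, Pi.mul_apply, hb.2 s hs, Pi.inv_apply, mul_one, mul_inv_cancel]
  · simp [hxr]

theorem sc2_step (hT : ¬ IsMulCommutative T) (X : Subgroup (Fin m → T)) (hX : Subdirect X)
    (r : Fin m) (S : Finset (Fin m)) (hr : r ∉ S)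
    (hS : ∀ j ∈ S, ¬ Linked X j r) (t : T) :
    ∃ x ∈ X, x r = t ∧ ∀ s ∈ S, x s = 1 := by
  classical
  induction S using Finset.induction_on generalizing t with
  | empty =>
    obtain ⟨x, hx, hxr⟩ := hX r t
    exact ⟨x, hx, hxr, by simp⟩
  | insert r'' S'' hnot ih =>
    have hr' : r ∉ S'' := fun h => hr (Finset.mem_insert_of_mem h)
    have ih' := ih hr' (fun j hj => hS j (Finset.mem_insert_of_mem hj))
    have hN := sc2_normal X hX (insert r'' S'') r
    rcases hN.eq_bot_or_eq_top with h0 | h0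
    · exfalso
      apply hS r'' (Finset.mem_insert_self _ _)
      intro x hx hx1
      apply center_trivial hT
      intro s
      obtain ⟨a, ha, har, haS⟩ := ih' s
      have hc : x * a * x⁻¹ * a⁻¹ ∈ sc2B X (insert r'' S'') := by
        refine ⟨X.mul_mem (X.mul_mem (X.mul_mem hx ha) (X.inv_mem hx)) (X.inv_mem ha), ?_⟩
        intro k hk
        rcases Finset.mem_insert.1 hk with rfl | hk
        · simp [hx1]
        · simp [haS k hk]
      have hc' : (x * a * x⁻¹ * a⁻¹) r ∈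
          (sc2B X (insert r'' S'')).map (Pi.evalMonoidHom (fun _ : Fin m => T) r) :=
        ⟨_, hc, rfl⟩
      rw [h0, Subgroup.mem_bot] at hc'
      simp only [Pi.mul_apply, Pi.inv_apply, har] at hc'
      rw [mul_inv_eq_one, mul_inv_eq_iff_eq_mul] at hc'
      exact hc'.symm
    · have ht : t ∈ (sc2B X (insert r'' S'')).map (Pi.evalMonoidHom (fun _ : Fin m => T) r) := by
        rw [h0]; trivial
      obtain ⟨b, hb, hbt⟩ := ht
      exact ⟨b, hb.1, hbt, hb.2⟩

/-- SC2 -/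
theorem independent (hT : ¬ IsMulCommutative T) (X : Subgroup (Fin m → T)) (hX : Subdirect X)
    (S : Finset (Fin m)) (hS : ∀ i ∈ S, ∀ j ∈ S, Linked X i j → i = j) (g : Fin m → T) :
    ∃ x ∈ X, ∀ r ∈ S, x r = g r := by
  classical
  induction S using Finset.induction_on with
  | empty => exact ⟨1, X.one_mem, by simp⟩
  | insert r S' hnot ih =>
    obtain ⟨y, hy, hyS⟩ := ih (fun i hi j hj => hS i (Finset.mem_insert_of_mem hi) j
      (Finset.mem_insert_of_mem hj))
    obtain ⟨z, hz, hzr, hzS⟩ := sc2_step hT X hX r S' hnot (by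
      intro j hj hl
      have := hS j (Finset.mem_insert_of_mem hj) r (Finset.mem_insert_self _ _) hl
      exact hnot (this ▸ hj)) ((y r)⁻¹ * g r)
    refine ⟨y * z, X.mul_mem hy hz, ?_⟩
    intro k hk
    rcases Finset.mem_insert.1 hk with rfl | hk
    · rw [Pi.mul_apply, hzr, mul_inv_cancel_left]
    · rw [Pi.mul_apply, hzS k hk, mul_one, hyS k hk]

end Cfsg.Agent.Lib.Helper67.ONS
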