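import Mathlib
import Cfsg.Agent.Lib.Helper61.ONSDefs
import Cfsg.Agent.Lib.Helper67.ONSSc1
import Cfsg.Agent.Lib.Helper67.ONSSc2

set_option autoImplicit false

namespace Cfsg.Agent.Lib.Helper67.ONS

open Cfsg.Agent.Lib.Helper61.ONS

universe u v

variable {T : Type u} [Group T] [IsSimpleGroup T] {m : ℕ}

theorem linked_symm (X : Subgroup (Fin m → T)) (hX : Subdirect X) {i j : Fin m}
    (h : Linked X i j) : Linked X j i := by
  obtain ⟨β, hβ⟩ := exists_iso_of_linked X hX i j h
  intro x hx hx1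
  rw [hβ x hx] at hx1
  exact (map_eq_one_iff β β.injective).1 hx1

omit [IsSimpleGroup T] in
theorem linked_refl (X : Subgroup (Fin m → T)) (i : Fin m) : Linked X i i := fun _ _ h => h

omit [IsSimpleGroup T] in
theorem linked_trans (X : Subgroup (Fin m → T)) {i j k : Fin m} (h1 : Linked X i j)
    (h2 : Linked X j k) : Linked X i k := fun x hx h => h2 x hx (h1 x hx h)

/-- SC3 -/
theorem scott (hT : ¬ IsMulCommutative T) (X : Subgroup (Fin m → T)) (hX : Subdirect X) :
    ∃ (c : Fin m → Fin m) (β : Fin m → (T ≃* T)), (∀ i, c (c i) = c i) ∧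
      (∀ i j, c i = c j ↔ Linked X i j) ∧
      (∀ i, c i = i → β i = MulEquiv.refl T) ∧ ∀ f : Fin m → T, f ∈ X ↔ ∀ i, f i = β i (f (c i)) := by
  classical
  let s : Setoid (Fin m) :=
    { r := Linked X
      iseqv := ⟨linked_refl X, fun h => linked_symm X hX h, fun h1 h2 => linked_trans X h1 h2⟩ }
  let c : Fin m → Fin m := fun i => (Quotient.mk s i).out
  have hc1 : ∀ i, Linked X (c i) i := fun i => Quotient.exact (Quotient.out_eq (Quotient.mk s i))
  have hc2 : ∀ i j, c i = c j ↔ Linked X i j := by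
    intro i j
    constructor
    · intro h
      have h1 := hc1 i
      rw [h] at h1
      exact linked_trans X (linked_symm X hX h1) (hc1 j)
    · intro h
      have : Quotient.mk s i = Quotient.mk s j := Quotient.sound h
      show (Quotient.mk s i).out = (Quotient.mk s j).out
      rw [this]
  have hβex : ∀ i, ∃ β : T ≃* T, (c i = i → β = MulEquiv.refl T) ∧ ∀ x ∈ X, x i = β (x (c i)) := by
    intro i
    by_cases hi : c i = i
    · exact ⟨MulEquiv.refl T, fun _ => rfl, fun x _ => by rw [hi]; rfl⟩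
    · obtain ⟨β, hβ⟩ := exists_iso_of_linked X hX (c i) i (hc1 i)
      exact ⟨β, fun h => absurd h hi, hβ⟩
  choose β hβ1 hβ2 using hβex
  refine ⟨c, β, fun i => (hc2 _ _).2 (hc1 i), hc2, hβ1, ?_⟩
  intro f
  constructor
  · intro hf i
    exact hβ2 i f hf
  · intro hf
    obtain ⟨x, hx, hxS⟩ := independent hT X hX (Finset.univ.image c) (by
      intro i hi j hj hl
      obtain ⟨i', -, rfl⟩ := Finset.mem_image.1 hi
      obtain ⟨j', -, rfl⟩ := Finset.mem_image.1 hj
      have h1 := (hc2 _ _).2 hl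
      rw [(hc2 _ _).2 (hc1 i'), (hc2 _ _).2 (hc1 j')] at h1
      exact h1) f
    have : f = x := by
      funext i
      rw [hf i, hβ2 i x hx, hxS (c i) (Finset.mem_image_of_mem c (Finset.mem_univ i))]
    rw [this]
    exact hx

end Cfsg.Agent.Lib.Helper67.ONS
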