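import Cfsg.Agent.Lib.Helper50.GIForms
import Cfsg.Agent.Lib.Helper48.SymmChar2
import Cfsg.Agent.Lib.Helper17.SympCoord

set_option autoImplicit false

/-! Congruence of alternating / non-alternating symmetric matrices (rungs ALTODD, CA, C2). -/

namespace Cfsg.Agent.Lib.Helper67.GI

open Matrix MatrixGroups Cfsg.Agent.Lib.Helper50.GI

variable {ι : Type} [Fintype ι] [DecidableEq ι] {K : Type*} [Field K]

/-- the bilinear form of a matrix, bundled. -/
noncomputable def bfB (N : Matrix ι ι K) : LinearMap.BilinForm K (ι → K) := Matrix.toBilin' N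

theorem bfB_apply (N : Matrix ι ι K) (u v : ι → K) : bfB N u v = bf N u v := by
  unfold bfB bf
  rw [Matrix.toBilin'_apply']

theorem eq_zero_of_bf_left {N : Matrix ι ι K} (hd : N.det ≠ 0) (x : ι → K)
    (h : ∀ y, bf N x y = 0) : x = 0 := by
  apply Matrix.eq_zero_of_vecMul_eq_zero hd
  funext j
  have := h (Pi.single j 1)
  unfold bf at this
  rw [dotProduct_mulVec, dotProduct_single_one] at this
  simpa using this

omit [DecidableEq ι] in
theorem bf_skew {N : Matrix ι ι K} (hN : Nᵀ = -N) (u v : ι → K) : bf N u v = - bf N v u := by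
  unfold bf
  rw [dotProduct_mulVec, ← mulVec_transpose, hN, dotProduct_comm, neg_mulVec, dotProduct_neg]

omit [DecidableEq ι] in
theorem bf_smul_smul (N : Matrix ι ι K) (a b : K) (u v : ι → K) :
    bf N (a • u) (b • v) = a * b * bf N u v := by
  unfold bf
  rw [mulVec_smul, smul_dotProduct, dotProduct_smul, smul_eq_mul, smul_eq_mul, mul_assoc]

theorem bf_self_eq_zero {N : Matrix ι ι K} (hN : Nᵀ = -N) (hN0 : ∀ i, N i i = 0) (x : ι → K) :
    bf N x x = 0 := by
  have hx : x = ∑ i, x i • (Pi.single i (1 : K) : ι → K) := by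
    funext j
    simp [Finset.sum_apply, Pi.single_apply]
  rw [hx]
  apply Finset.sum_induction _ (fun y : ι → K => bf N y y = 0)
  · intro a b ha hb
    rw [bf_add_left, bf_add_right, bf_add_right, ha, hb, bf_skew hN b a]
    ring
  · unfold bf; simp
  · intro i _
    rw [bf_smul_smul, bf_single, hN0, mul_zero]

theorem bfB_isAlt {N : Matrix ι ι K} (hN : Nᵀ = -N) (hN0 : ∀ i, N i i = 0) : (bfB N).IsAlt :=
  fun x => by rw [bfB_apply]; exact bf_self_eq_zero hN hN0 x

/-- an isometry between the forms of `N'` and `N` gives a congruence. -/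
theorem congr_of_isometry (N N' : Matrix ι ι K) (Ψ : (ι → K) ≃ₗ[K] (ι → K))
    (h : ∀ u v, bf N (Ψ u) (Ψ v) = bf N' u v) : ∃ P : GL ι K, N' = P.1 * N * P.1ᵀ := by
  set M := LinearMap.toMatrix' (Ψ : (ι → K) →ₗ[K] (ι → K)) with hM
  set M' := LinearMap.toMatrix' (Ψ.symm : (ι → K) →ₗ[K] (ι → K)) with hM'
  have h1 : M * M' = 1 := toMatrix'_mul_symm Ψ
  have h2 : M' * M = 1 := toMatrix'_symm_mul Ψ
  refine ⟨⟨Mᵀ, M'ᵀ, by rw [← transpose_mul, h2, transpose_one],
    by rw [← transpose_mul, h1, transpose_one]⟩, ?_⟩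
  show N' = Mᵀ * N * Mᵀᵀ
  rw [transpose_transpose]
  apply bf_ext
  intro u v
  rw [← bf_mulVec, ← h, hM, LinearMap.toMatrix'_mulVec, LinearMap.toMatrix'_mulVec]
  rfl

/-- **Rung ALTODD**. -/
theorem det_alt_odd {m : ℕ} (N : Matrix (Fin (2 * m + 1)) (Fin (2 * m + 1)) K) (hN : Nᵀ = -N)
    (hN0 : ∀ i, N i i = 0) : N.det = 0 := by
  by_contra hd
  obtain ⟨m', k', b, -, -, -, h4⟩ := Cfsg.Agent.S0752.result (bfB N) (bfB_isAlt hN hN0)
  have hk' : k' = 0 := by
    by_contra hne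
    have hpos : 0 < k' := Nat.pos_of_ne_zero hne
    apply b.ne_zero (Sum.inr ⟨0, hpos⟩)
    apply eq_zero_of_bf_left hd
    intro y
    rw [← bfB_apply]
    exact h4 ⟨0, hpos⟩ y
  subst hk'
  have := Module.finrank_eq_card_basis b
  simp only [Fintype.card_sum, Fintype.card_fin, Module.finrank_fintype_fun_eq_card] at this
  omega

/-- **Rung CA**. -/
theorem congr_alt {n : ℕ} (N N' : Matrix (Fin n) (Fin n) K) (hN : Nᵀ = -N) (hN0 : ∀ i, N i i = 0)
    (hN' : N'ᵀ = -N') (hN0' : ∀ i, N' i i = 0) (hd : N.det ≠ 0) (hd' : N'.det ≠ 0) :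
    ∃ P : GL (Fin n) K, N' = P.1 * N * P.1ᵀ := by
  rcases Nat.even_or_odd' n with ⟨k, rfl | rfl⟩
  · have hfr : Module.finrank K (Fin (2 * k) → K) = 2 * k := by simp
    obtain ⟨Φ, hΦ⟩ := Cfsg.Agent.Lib.Helper17.exists_symp_coords (bfB N) (bfB_isAlt hN hN0)
      (fun x hx => eq_zero_of_bf_left hd x (fun y => by rw [← bfB_apply]; exact hx y)) hfr
    obtain ⟨Φ', hΦ'⟩ := Cfsg.Agent.Lib.Helper17.exists_symp_coords (bfB N') (bfB_isAlt hN' hN0')
      (fun x hx => eq_zero_of_bf_left hd' x (fun y => by rw [← bfB_apply]; exact hx y)) hfr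
    apply congr_of_isometry N N' (Φ'.symm.trans Φ)
    intro u v
    rw [← bfB_apply, ← bfB_apply]
    simp only [LinearEquiv.trans_apply]
    rw [hΦ, ← hΦ', LinearEquiv.apply_symm_apply, LinearEquiv.apply_symm_apply]
  · exact absurd (det_alt_odd N hN hN0) hd

/-- a non-alternating nondegenerate symmetric matrix over a perfect field of characteristic two is
congruent to the identity. -/
theorem exists_mul_mul_transpose_eq_one [CharP K 2] (hK : ∀ c : K, IsSquare c) {n : ℕ}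
    (N : Matrix (Fin n) (Fin n) K) (hN : Nᵀ = N) (hd : N.det ≠ 0) (hi : ∃ i, N i i ≠ 0) :
    ∃ X : Matrix (Fin n) (Fin n) K, X * N * Xᵀ = 1 := by
  obtain ⟨i, hi⟩ := hi
  obtain ⟨x, -, hx⟩ := Cfsg.Agent.Lib.Helper48.exists_orthonormal_char_two hK (bfB N)
    (fun u v => by rw [bfB_apply, bfB_apply]; exact bf_comm hN u v) n ⊤ (by simp)
    (fun w _ hw => by
      by_contra hcon
      push Not at hcon
      exact hw (eq_zero_of_bf_left hd w (fun y => by
        rw [← bfB_apply]; exact hcon y trivial)))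
    ⟨Pi.single i 1, trivial, by rw [bfB_apply, bf_single]; exact hi⟩
  refine ⟨Matrix.of x, ?_⟩
  ext a b
  have := hx a b
  rw [bfB_apply] at this
  rw [Matrix.one_apply, ← this]
  unfold bf
  rw [Matrix.mul_assoc, Matrix.mul_apply, dotProduct]
  apply Finset.sum_congr rfl
  intro j _
  congr 1

/-- **Rung C2**. -/
theorem congr_char2 [Fintype K] [CharP K 2] {n : ℕ} (N N' : Matrix (Fin n) (Fin n) K) (hN : Nᵀ = N)
    (hN' : N'ᵀ = N') (hd : N.det ≠ 0) (hd' : N'.det ≠ 0) (hi : ∃ i, N i i ≠ 0)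
    (hi' : ∃ i, N' i i ≠ 0) : ∃ P : GL (Fin n) K, N' = P.1 * N * P.1ᵀ := by
  have hK : ∀ c : K, IsSquare c := fun c =>
    FiniteField.isSquare_of_char_two (ringChar.eq K 2) c
  obtain ⟨X, hX⟩ := exists_mul_mul_transpose_eq_one hK N hN hd hi
  obtain ⟨X', hX'⟩ := exists_mul_mul_transpose_eq_one hK N' hN' hd' hi'
  have hdX : X.det ≠ 0 := by
    intro h0
    have := congrArg Matrix.det hX
    rw [det_mul, det_mul, h0] at this
    simp at this
  have hdX' : X'.det ≠ 0 := by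
    intro h0
    have := congrArg Matrix.det hX'
    rw [det_mul, det_mul, h0] at this
    simp at this
  let A : GL (Fin n) K := Matrix.GeneralLinearGroup.mkOfDetNeZero X hdX
  let A' : GL (Fin n) K := Matrix.GeneralLinearGroup.mkOfDetNeZero X' hdX'
  have hY : (A'⁻¹).1 * X' = 1 := by
    have : (A'⁻¹ * A').1 = 1 := by rw [inv_mul_cancel]; rfl
    exact this
  refine ⟨A'⁻¹ * A, ?_⟩
  show N' = ((A'⁻¹).1 * X) * N * ((A'⁻¹).1 * X)ᵀ
  set Y := (A'⁻¹).1 with hYdef
  have hY' : X'ᵀ * Yᵀ = 1 := by rw [← transpose_mul, hY, transpose_one]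
  calc N' = (Y * X') * N' * (X'ᵀ * Yᵀ) := by rw [hY, hY', Matrix.one_mul, Matrix.mul_one]
    _ = Y * (X' * N' * X'ᵀ) * Yᵀ := by simp only [Matrix.mul_assoc]
    _ = Y * (X * N * Xᵀ) * Yᵀ := by rw [hX, hX']
    _ = (Y * X) * N * (Y * X)ᵀ := by rw [transpose_mul]; simp only [Matrix.mul_assoc]

end Cfsg.Agent.Lib.Helper67.GI
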