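import Mathlib
import Cfsg.Agent.Lib.Helper18.AutPSL.FieldCent

set_option autoImplicit false

/-! Field rungs EMB and FROB of the GRAPH-INV ladder. -/

namespace Cfsg.Agent.Lib.Helper67.GI

open Cfsg.Agent.Lib.Helper18.AutPSL

theorem charP_of_card {F : Type*} [Field F] [Fintype F] {p k : ℕ} (hp : p.Prime)
    (hF : Fintype.card F = p ^ k) : CharP F p := by
  obtain ⟨n, hp', hn⟩ := FiniteField.card F (ringChar F)
  have h1 : ringChar F ∣ p ^ k := by
    rw [← hF, hn]; exact dvd_pow_self _ n.ne_zero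
  have h2 : ringChar F = p := (Nat.prime_dvd_prime_iff_eq hp' hp).mp (hp'.dvd_of_dvd_pow h1)
  rw [← h2]
  exact ringChar.charP F

/-- the `q`-power automorphism of the field with `q ^ 2` elements has order two. -/
theorem exists_frob {F : Type*} [Field F] [Fintype F] {p f : ℕ} [hp : Fact p.Prime]
    (hF : Fintype.card F = p ^ (2 * f)) (hf : 0 < f) :
    ∃ τ : F ≃+* F, (∀ x, τ x = x ^ (p ^ f)) ∧ orderOf τ = 2 := by
  classical
  haveI : CharP F p := charP_of_card hp.out hF
  let τ : F ≃+* F := iterateFrobeniusEquiv F p f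
  have hτ : ∀ x, τ x = x ^ (p ^ f) := fun x => by
    show iterateFrobeniusEquiv F p f x = _
    rw [coe_iterateFrobeniusEquiv, iterateFrobenius_def]
  refine ⟨τ, hτ, ?_⟩
  have hq : 2 ≤ p ^ f := by
    calc 2 ≤ p := hp.out.two_le
      _ = p ^ 1 := (pow_one p).symm
      _ ≤ p ^ f := Nat.pow_le_pow_right hp.out.pos hf
  apply orderOf_eq_prime
  · ext x
    show τ (τ x) = x
    rw [hτ, hτ, ← pow_mul, ← pow_add, ← two_mul, ← hF, FiniteField.pow_card]
  · intro h1
    obtain ⟨g, hg⟩ := IsCyclic.exists_generator (α := Fˣ)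
    have ho : orderOf g = Fintype.card Fˣ := by
      rw [← Nat.card_eq_fintype_card]
      exact orderOf_eq_card_of_forall_mem_zpowers hg
    rw [Fintype.card_units, hF] at ho
    have h2 : (g : F) ^ (p ^ f) = g := by
      rw [← hτ, h1]; rfl
    have h3 : g ^ (p ^ f - 1) = 1 := by
      apply Units.ext
      rw [Units.val_pow_eq_pow_val, Units.val_one]
      have h4 : (g : F) ^ (p ^ f - 1) * g = 1 * g := by
        rw [← pow_succ, Nat.sub_add_cancel (by omega), h2, one_mul]
      exact mul_right_cancel₀ g.ne_zero h4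
    have h5 := Nat.le_of_dvd (by omega) (orderOf_dvd_of_pow_eq_one h3)
    rw [ho] at h5
    have h6 : p ^ (2 * f) = p ^ f * p ^ f := by rw [two_mul, pow_add]
    rw [h6] at h5
    have : p ^ f * 2 ≤ p ^ f * p ^ f := Nat.mul_le_mul_left _ hq
    omega

theorem exists_prime_pow_of_card_sq {F : Type*} [Field F] [Fintype F] {q : ℕ}
    (hF : Fintype.card F = q ^ 2) : ∃ p f : ℕ, p.Prime ∧ 0 < f ∧ q = p ^ f := by
  obtain ⟨n, hp', hn⟩ := FiniteField.card F (ringChar F)
  have h1 : q ∣ ringChar F ^ (n : ℕ) := by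
    rw [← hn, hF]; exact dvd_pow_self _ two_ne_zero
  obtain ⟨k, -, hk⟩ := (Nat.dvd_prime_pow hp').mp h1
  refine ⟨ringChar F, k, hp', ?_, hk⟩
  rcases Nat.eq_zero_or_pos k with h0 | h0
  · exfalso
    rw [h0, pow_zero] at hk
    rw [hk, one_pow] at hF
    have := Fintype.one_lt_card (α := F)
    omega
  · exact h0

/-- **Rung EMB**. -/
theorem exists_emb {F F₀ : Type*} [Field F] [Fintype F] [Field F₀] [Fintype F₀] {q : ℕ}
    (hF : Fintype.card F = q ^ 2) (hF₀ : Fintype.card F₀ = q) :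
    ∃ j : F₀ →+* F, ∀ x : F, x ^ q = x ↔ ∃ y, j y = x := by
  obtain ⟨p, f, hp, hf, rfl⟩ := exists_prime_pow_of_card_sq hF
  haveI : Fact p.Prime := ⟨hp⟩
  have hF' : Fintype.card F = p ^ (2 * f) := by rw [hF, ← pow_mul, mul_comm]
  obtain ⟨τ, hτ, ho⟩ := exists_frob hF' hf
  obtain ⟨-, h2⟩ := exists_subfield_emb hF' τ ho two_pos
  obtain ⟨j, hj⟩ := h2 F₀ (by rw [hF₀, Nat.mul_div_cancel_left _ two_pos])
  refine ⟨j, fun x => ?_⟩
  rw [← hτ, hj]
  rfl

/-- **Rung FROB**. -/
theorem eq_frob {F : Type*} [Field F] [Fintype F] {q : ℕ} (hF : Fintype.card F = q ^ 2)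
    (σ : F ≃+* F) (h1 : σ ≠ 1) (h2 : σ * σ = 1) (x : F) : σ x = x ^ q := by
  obtain ⟨p, f, hp, hf, rfl⟩ := exists_prime_pow_of_card_sq hF
  haveI : Fact p.Prime := ⟨hp⟩
  have hF' : Fintype.card F = p ^ (2 * f) := by rw [hF, ← pow_mul, mul_comm]
  obtain ⟨τ, hτ, ho⟩ := exists_frob hF' hf
  have hoσ : orderOf σ = 2 := orderOf_eq_prime (by rw [pow_two]; exact h2) h1
  haveI : Fintype (GaloisField p f) := Fintype.ofFinite _
  have hc : Fintype.card (GaloisField p f) = p ^ f := by
    rw [← Nat.card_eq_fintype_card, GaloisField.card p f hf.ne']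
  have hc' : Fintype.card (GaloisField p f) = p ^ (2 * f / 2) := by
    rw [hc, Nat.mul_div_cancel_left _ two_pos]
  obtain ⟨j, hj⟩ := (exists_subfield_emb hF' τ ho two_pos).2 (GaloisField p f) hc'
  obtain ⟨j', hj'⟩ := (exists_subfield_emb hF' σ hoσ two_pos).2 (GaloisField p f) hc'
  -- the fixed fields coincide
  have hsub : Set.range j' ⊆ Set.range j := by
    rintro _ ⟨y, rfl⟩
    rw [← hj, hτ, ← map_pow, ← hc, FiniteField.pow_card]
  have hcard : (Set.range j).ncard ≤ (Set.range j').ncard := by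
    rw [← Set.image_univ, ← Set.image_univ, Set.ncard_image_of_injective _ j.injective,
      Set.ncard_image_of_injective _ j'.injective]
  have heq : Set.range j' = Set.range j := Set.eq_of_subset_of_ncard_le hsub hcard
  have hfix : ∀ z, σ z = z ↔ τ z = z := fun z => by rw [hj, hj', heq]
  have hσσ : ∀ z, σ (σ z) = z := fun z => by
    have := congrArg (fun φ : F ≃+* F => φ z) h2
    exact this
  have hs : τ (x + σ x) = x + σ x := (hfix _).mp (by rw [map_add, hσσ, add_comm])
  have ht : τ (x * σ x) = x * σ x := (hfix _).mp (by rw [map_mul, hσσ, mul_comm])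
  have hroot : (τ x - x) * (τ x - σ x) = 0 := by
    have e1 : τ x + τ (σ x) = x + σ x := by rw [← map_add]; exact hs
    have e2 : τ x * τ (σ x) = x * σ x := by rw [← map_mul]; exact ht
    have e3 : τ (σ x) = x + σ x - τ x := by rw [← e1]; ring
    rw [e3] at e2
    linear_combination -e2
  rw [← hτ]
  rcases mul_eq_zero.mp hroot with h | h
  · have h' : τ x = x := sub_eq_zero.mp h
    rw [h', (hfix x).mpr h']
  · exact (sub_eq_zero.mp h).symm

end Cfsg.Agent.Lib.Helper67.GI
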