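import Cfsg.Agent.Lib.Helper67.GIOdd2b
import Cfsg.Prelude.Def_LieTypeDatum

set_option autoImplicit false

/-! Rung ODD2 of the GRAPH-INV ladder. -/

namespace Cfsg.Agent.Lib.Helper67.GI

open Matrix MatrixGroups Cfsg.Agent.Lib.Helper50.GI

section abstract

variable {κ : Type} [Fintype κ] [DecidableEq κ] {K : Type*} [Field K]

theorem scal_inv (d : Kˣ) : (scal κ d)⁻¹ = scal κ d⁻¹ :=
  (map_inv (Units.map (Matrix.scalar κ : K →+* Matrix κ κ K).toMonoidHom) d).symm

theorem mul_scal_inv_mulVec (h : GL κ K) (d : Kˣ) (v : κ → K) :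
    (h * (scal κ d)⁻¹).1 *ᵥ v = (d : K)⁻¹ • (h.1 *ᵥ v) := by
  rw [Units.val_mul, ← mulVec_mulVec, scal_inv, scal_mulVec, mulVec_smul, Units.val_inv_eq_inv_val]

theorem inv_mul_scal (h : GL κ K) (d : Kˣ) :
    (h * (scal κ d)⁻¹)⁻¹ * h ∈ Cfsg.Geo.scalars κ K := by
  have : (h * (scal κ d)⁻¹)⁻¹ * h = scal κ d := by group
  rw [this]; exact scal_mem d

namespace OddData

variable (D : OddData κ K)

theorem isoB_equiv (hsq : ∀ c : K, ∃ d : K, d ^ 2 = c) :
    Nonempty (↥(isoB D.N) ≃* Cfsg.projQuot (simB D.N)) := by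
  apply projQuot_equiv_of_isometries
  · intro g hg
    exact ⟨1, fun u v => by rw [Units.val_one, one_mul]; exact hg u v⟩
  · rintro h ⟨c, hc⟩
    obtain ⟨d, hd⟩ := hsq c
    have hd0 : d ≠ 0 := by
      rintro rfl
      exact c.ne_zero (by rw [← hd]; simp)
    refine ⟨h * (scal κ (Units.mk0 d hd0))⁻¹, ?_, inv_mul_scal _ _⟩
    intro u v
    rw [mul_scal_inv_mulVec, mul_scal_inv_mulVec, bf_smul_smul]
    have := hc u v
    rw [show bf D.N (h.1 *ᵥ u) (h.1 *ᵥ v) = (c : K) * bf D.N u v from this, ← hd, Units.val_mk0]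
    field_simp
  · intro z hz hzI
    obtain ⟨d, hd⟩ := mulVec_of_mem_scalars hz
    have h1 := hzI D.e0 D.e0
    rw [hd, bf_smul_smul, D.Be, D.le] at h1
    have h2 : (d : K) = 1 := D.sq_inj (by rw [one_pow]; linear_combination h1)
    apply eq_one_of_mulVec
    intro v
    rw [hd, h2, one_smul]

theorem isoQ_equiv (hsq : ∀ c : K, ∃ d : K, d ^ 2 = c) :
    Nonempty (↥(isoQ D.Q) ≃* Cfsg.PGO K D.Q) := by
  apply projQuot_equiv_of_isometries
  · intro g hg
    exact ⟨1, fun v => by rw [Units.val_one, one_mul]; exact hg v⟩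
  · rintro h ⟨c, hc⟩
    obtain ⟨d, hd⟩ := hsq c
    have hd0 : d ≠ 0 := by
      rintro rfl
      exact c.ne_zero (by rw [← hd]; simp)
    refine ⟨h * (scal κ (Units.mk0 d hd0))⁻¹, ?_, inv_mul_scal _ _⟩
    intro v
    rw [mul_scal_inv_mulVec, D.Qsmul]
    have := hc v
    rw [show D.Q (h.1 *ᵥ v) = (c : K) * D.Q v from this, ← hd, Units.val_mk0]
    field_simp
  · intro z hz hzI
    obtain ⟨d, hd⟩ := mulVec_of_mem_scalars hz
    have h1 := hzI D.e0
    rw [hd, D.Qsmul, D.Qe] at h1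
    have h2 : (d : K) = 1 := D.sq_inj (by rw [one_pow]; linear_combination h1)
    apply eq_one_of_mulVec
    intro v
    rw [hd, h2, one_smul]

theorem projQuot_equiv (hsq : ∀ c : K, ∃ d : K, d ^ 2 = c) :
    Nonempty (Cfsg.projQuot (simB D.N) ≃* Cfsg.PGO K D.Q) := by
  obtain ⟨e1⟩ := D.isoB_equiv hsq
  obtain ⟨e2⟩ := D.isoQ_equiv hsq
  obtain ⟨e3⟩ := D.isoQ_equiv_isoB hsq
  exact ⟨e1.symm.trans (e3.symm.trans e2)⟩

end OddData

end abstract

variable {K : Type*} [Field K]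

/-- the standard matrix. -/
def N0 (m : ℕ) (K : Type*) [Field K] :
    Matrix (Unit ⊕ (Fin m ⊕ Fin m)) (Unit ⊕ (Fin m ⊕ Fin m)) K :=
  fromBlocks 1 0 0 (fromBlocks 0 1 1 0)

theorem bf_N0 (m : ℕ) (u v : Unit ⊕ (Fin m ⊕ Fin m) → K) :
    bf (N0 m K) u v = u (.inl ()) * v (.inl ()) +
      (∑ i : Fin m, u (.inr (.inl i)) * v (.inr (.inr i)) +
       ∑ i : Fin m, u (.inr (.inr i)) * v (.inr (.inl i))) := by
  unfold bf N0
  simp [dotProduct, Fintype.sum_sum_type, mulVec, Matrix.one_apply]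

theorem N0_sq (m : ℕ) : N0 m K * N0 m K = 1 := by
  unfold N0
  simp [fromBlocks_multiply]

theorem N0_symm (m : ℕ) : (N0 m K)ᵀ = N0 m K := by
  unfold N0
  simp [fromBlocks_transpose]

theorem N0_det (m : ℕ) : (N0 m K).det ≠ 0 := by
  intro h
  have := congrArg Matrix.det (N0_sq (K := K) m)
  rw [det_mul, h] at this
  simp at this

/-- the standard data. -/
def stdData (m : ℕ) (K : Type*) [Field K] (h2 : (2 : K) = 0) :
    OddData (Unit ⊕ (Fin m ⊕ Fin m)) K where
  e0 := Pi.single (.inl ()) 1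
  l := Pi.single (.inl ()) 1
  N := N0 m K
  Q := Cfsg.quadFormOdd m K
  two := h2
  symm := N0_symm m
  det := N0_det m
  le := by rw [single_one_dotProduct, Pi.single_eq_same]
  Qadd := fun u v => by
    rw [bf_N0, single_one_dotProduct, single_one_dotProduct]
    unfold Cfsg.quadFormOdd
    simp only [Pi.add_apply]
    have : ∑ i : Fin m, (u (.inr (.inl i)) + v (.inr (.inl i))) *
        (u (.inr (.inr i)) + v (.inr (.inr i))) =
        ∑ i : Fin m, u (.inr (.inl i)) * u (.inr (.inr i)) +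
        ∑ i : Fin m, v (.inr (.inl i)) * v (.inr (.inr i)) +
        (∑ i : Fin m, u (.inr (.inl i)) * v (.inr (.inr i)) +
         ∑ i : Fin m, u (.inr (.inr i)) * v (.inr (.inl i))) := by
      simp only [← Finset.sum_add_distrib]
      apply Finset.sum_congr rfl
      intro i _
      ring
    rw [this]
    ring
  Qsmul := fun c v => by
    unfold Cfsg.quadFormOdd
    simp only [Pi.smul_apply, smul_eq_mul]
    rw [mul_add, Finset.mul_sum]
    congr 1
    · ring
    · apply Finset.sum_congr rfl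
      intro i _
      ring
  Qe := by
    unfold Cfsg.quadFormOdd
    simp
  Be := fun v => by
    rw [bf_N0, single_one_dotProduct]
    simp
  Bself := fun v => by
    rw [bf_N0, single_one_dotProduct]
    have : ∑ i : Fin m, v (.inr (.inr i)) * v (.inr (.inl i)) =
        ∑ i : Fin m, v (.inr (.inl i)) * v (.inr (.inr i)) :=
      Finset.sum_congr rfl (fun i _ => mul_comm _ _)
    rw [this]
    linear_combination (∑ i : Fin m, v (.inr (.inl i)) * v (.inr (.inr i))) * h2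

/-- **Rung ODD2**. -/
theorem simB_odd_char2 [Fintype K] [CharP K 2] {m : ℕ}
    (N : Matrix (Fin (2 * m + 1)) (Fin (2 * m + 1)) K) (hN : Nᵀ = N) (hd : N.det ≠ 0) :
    Nonempty (Cfsg.projQuot (simB N) ≃* Cfsg.PGO K (Cfsg.quadFormOdd m K)) := by
  have h2 : (2 : K) = 0 := CharP.cast_eq_zero K 2
  have hsq : ∀ c : K, ∃ d : K, d ^ 2 = c := fun c => by
    obtain ⟨d, hd⟩ := FiniteField.isSquare_of_char_two (ringChar.eq K 2) c
    exact ⟨d, by rw [hd, pow_two]⟩
  have hcard : Fintype.card (Fin (2 * m + 1)) = Fintype.card (Unit ⊕ (Fin m ⊕ Fin m)) := by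
    simp only [Fintype.card_sum, Fintype.card_fin, Fintype.card_unit]; omega
  let e : Fin (2 * m + 1) ≃ Unit ⊕ (Fin m ⊕ Fin m) := Fintype.equivOfCardEq hcard
  let N₁ : Matrix (Fin (2 * m + 1)) (Fin (2 * m + 1)) K := (N0 m K).submatrix e e
  have hN₁ : N₁ᵀ = N₁ := by
    show ((N0 m K).submatrix e e)ᵀ = _
    rw [transpose_submatrix, N0_symm]
  have hd₁ : N₁.det ≠ 0 := by
    show ((N0 m K).submatrix e e).det ≠ 0
    rw [det_submatrix_equiv_self]; exact N0_det m
  have hi₁ : ∃ i, N₁ i i ≠ 0 := by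
    refine ⟨e.symm (.inl ()), ?_⟩
    show (N0 m K) (e (e.symm (.inl ()))) (e (e.symm (.inl ()))) ≠ 0
    rw [e.apply_symm_apply]
    simp [N0]
  have hi : ∃ i, N i i ≠ 0 := by
    by_contra hcon
    push Not at hcon
    apply hd
    apply det_alt_odd N _ hcon
    rw [hN]
    ext i j
    rw [Matrix.neg_apply, CharTwo.neg_eq]
  obtain ⟨P, hP⟩ := congr_char2 N₁ N hN₁ hN hd₁ hd hi₁ hi
  obtain ⟨E1⟩ := simB_congr N₁ N P 1 one_ne_zero (by rw [one_smul]; exact hP)
  obtain ⟨E2⟩ := sim_equiv_of_form (bf N₁) (bf (N0 m K)) (LinearEquiv.funCongrLeft K K e.symm) 1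
    one_ne_zero (fun u v => by
      rw [one_mul]
      show bf (N0 m K) (u ∘ e.symm) (v ∘ e.symm) = bf ((N0 m K).submatrix e e) u v
      unfold bf
      rw [submatrix_mulVec_equiv, comp_equiv_symm_dotProduct])
  obtain ⟨E3⟩ := (stdData m K h2).projQuot_equiv hsq
  exact ⟨E1.trans (E2.trans E3)⟩

end Cfsg.Agent.Lib.Helper67.GI
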