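import Cfsg.Agent.Lib.Helper67.GIPQ
import Cfsg.Agent.Lib.Helper67.GIBase

set_option autoImplicit false

/-! Characteristic two, odd dimension: the isometry group of a non-alternating symmetric form is
isomorphic to the isometry group of the quadratic form (abstract core of rung ODD2). -/

namespace Cfsg.Agent.Lib.Helper67.GI

open Matrix MatrixGroups Cfsg.Agent.Lib.Helper50.GI

variable {κ : Type} [Fintype κ] [DecidableEq κ] {K : Type*} [Field K]

/-- the isometries of the bilinear form of `N`. -/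
def isoB (N : Matrix κ κ K) : Subgroup (GL κ K) where
  carrier := {g | ∀ u v, bf N (g.1 *ᵥ u) (g.1 *ᵥ v) = bf N u v}
  mul_mem' {a b} ha hb := fun u v => by
    rw [Units.val_mul, ← mulVec_mulVec, ← mulVec_mulVec, ha, hb]
  one_mem' := fun u v => by simp
  inv_mem' {a} ha := fun u v => by
    have h := ha ((a⁻¹).1 *ᵥ u) ((a⁻¹).1 *ᵥ v)
    rw [mulVec_mulVec, mulVec_mulVec, ← Units.val_mul, mul_inv_cancel, Units.val_one,
      one_mulVec, one_mulVec] at h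
    exact h.symm

/-- the isometries of `Q`. -/
def isoQ (Q : (κ → K) → K) : Subgroup (GL κ K) where
  carrier := {g | ∀ v, Q (g.1 *ᵥ v) = Q v}
  mul_mem' {a b} ha hb := fun v => by
    rw [Units.val_mul, ← mulVec_mulVec, ha, hb]
  one_mem' := fun v => by simp
  inv_mem' {a} ha := fun v => by
    have h := ha ((a⁻¹).1 *ᵥ v)
    rw [mulVec_mulVec, ← Units.val_mul, mul_inv_cancel, Units.val_one, one_mulVec] at h
    exact h.symm

theorem gl_surj (g : GL κ K) (w : κ → K) : ∃ v, g.1 *ᵥ v = w :=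
  ⟨(g⁻¹).1 *ᵥ w, by rw [mulVec_mulVec, ← Units.val_mul, mul_inv_cancel, Units.val_one, one_mulVec]⟩

theorem gl_inj (g : GL κ K) {v w : κ → K} (h : g.1 *ᵥ v = g.1 *ᵥ w) : v = w := by
  have := congrArg (fun x => (g⁻¹).1 *ᵥ x) h
  simpa [mulVec_mulVec, ← Units.val_mul] using this

/-- the data. -/
structure OddData (κ : Type) [Fintype κ] [DecidableEq κ] (K : Type*) [Field K] where
  e0 : κ → K
  l : κ → K
  N : Matrix κ κ K
  Q : (κ → K) → K
  two : (2 : K) = 0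
  symm : Nᵀ = N
  det : N.det ≠ 0
  le : l ⬝ᵥ e0 = 1
  Qadd : ∀ u v, Q (u + v) = Q u + Q v + (bf N u v + (l ⬝ᵥ u) * (l ⬝ᵥ v))
  Qsmul : ∀ (c : K) v, Q (c • v) = c ^ 2 * Q v
  Qe : Q e0 = 1
  Be : ∀ v, bf N e0 v = l ⬝ᵥ v
  Bself : ∀ v, bf N v v = (l ⬝ᵥ v) ^ 2

namespace OddData

variable (D : OddData κ K)

include D in
theorem add_self (a : K) : a + a = 0 := by
  have := D.two
  linear_combination a * this

include D in
theorem sq_inj {a b : K} (h : a ^ 2 = b ^ 2) : a = b := by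
  have h1 : (a - b) ^ 2 = 0 := by
    have := D.two
    linear_combination h + (b ^ 2 - a * b) * this
  exact sub_eq_zero.mp (pow_eq_zero_iff two_ne_zero |>.mp h1)

omit [DecidableEq κ] in
theorem bf_smul_right (N : Matrix κ κ K) (c : K) (u v : κ → K) :
    bf N u (c • v) = c * bf N u v := by
  unfold bf
  rw [mulVec_smul, dotProduct_smul, smul_eq_mul]

theorem Q_add_e0 (u : κ → K) (c : K) : D.Q (u + c • D.e0) = D.Q u + c ^ 2 := by
  rw [D.Qadd, D.Qsmul, D.Qe, bf_smul_right, bf_comm D.symm, D.Be, dotProduct_smul, D.le]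
  have := D.two
  simp only [smul_eq_mul]
  linear_combination (c * (D.l ⬝ᵥ u)) * this

/-- facts on isometries of the bilinear form -/
theorem l_isoB {g : GL κ K} (hg : g ∈ isoB D.N) (v : κ → K) : D.l ⬝ᵥ (g.1 *ᵥ v) = D.l ⬝ᵥ v := by
  apply D.sq_inj
  rw [← D.Bself, ← D.Bself, hg]

theorem e0_isoB {g : GL κ K} (hg : g ∈ isoB D.N) : g.1 *ᵥ D.e0 = D.e0 := by
  have h : g.1 *ᵥ D.e0 - D.e0 = 0 := by
    apply eq_zero_of_bf_left D.det
    intro y
    obtain ⟨v, rfl⟩ := gl_surj g y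
    have h1 : bf D.N (g.1 *ᵥ D.e0 - D.e0) (g.1 *ᵥ v) =
        bf D.N (g.1 *ᵥ D.e0) (g.1 *ᵥ v) - bf D.N D.e0 (g.1 *ᵥ v) := by
      unfold bf; rw [sub_dotProduct]
    rw [h1, hg, D.Be, D.Be, D.l_isoB hg, sub_self]
  exact sub_eq_zero.mp h

/-- facts on isometries of the quadratic form -/
theorem P_isoQ {h : GL κ K} (hh : h ∈ isoQ D.Q) (u v : κ → K) :
    bf D.N (h.1 *ᵥ u) (h.1 *ᵥ v) + (D.l ⬝ᵥ (h.1 *ᵥ u)) * (D.l ⬝ᵥ (h.1 *ᵥ v)) =
      bf D.N u v + (D.l ⬝ᵥ u) * (D.l ⬝ᵥ v) := by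
  have h1 := D.Qadd (h.1 *ᵥ u) (h.1 *ᵥ v)
  rw [← mulVec_add, hh, hh, hh, D.Qadd] at h1
  linear_combination -h1

theorem e0_isoQ {h : GL κ K} (hh : h ∈ isoQ D.Q) : h.1 *ᵥ D.e0 = D.e0 := by
  set c := D.l ⬝ᵥ (h.1 *ᵥ D.e0) with hc
  have h1 : h.1 *ᵥ D.e0 - c • D.e0 = 0 := by
    apply eq_zero_of_bf_left D.det
    intro y
    obtain ⟨v, rfl⟩ := gl_surj h y
    have h2 := D.P_isoQ hh D.e0 v
    rw [D.Be, D.le, one_mul, D.add_self, ← hc] at h2
    have h3 : bf D.N (h.1 *ᵥ D.e0 - c • D.e0) (h.1 *ᵥ v) =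
        bf D.N (h.1 *ᵥ D.e0) (h.1 *ᵥ v) - c * bf D.N D.e0 (h.1 *ᵥ v) := by
      unfold bf; rw [sub_dotProduct, smul_dotProduct, smul_eq_mul]
    rw [h3, D.Be]
    have := D.two
    linear_combination h2 - (c * (D.l ⬝ᵥ (h.1 *ᵥ v))) * this
  have h4 : h.1 *ᵥ D.e0 = c • D.e0 := sub_eq_zero.mp h1
  have h5 : c ^ 2 = 1 ^ 2 := by
    have := hh D.e0
    rw [h4, D.Qsmul, D.Qe] at this
    rw [one_pow]; linear_combination this
  rw [h4, D.sq_inj h5, one_smul]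

/-- the map from isometries of `Q` to isometries of the bilinear form, on matrices. -/
def Xi (a : Matrix κ κ K) : Matrix κ κ K := a + vecMulVec D.e0 (D.l ᵥ* a + D.l)

omit [DecidableEq κ] in
theorem vecMulVec_mulVec' (x y v : κ → K) : vecMulVec x y *ᵥ v = (y ⬝ᵥ v) • x := by
  funext i
  simp only [mulVec, dotProduct, vecMulVec_apply, Pi.smul_apply, smul_eq_mul, Finset.sum_mul]
  apply Finset.sum_congr rfl
  intro j _
  ring

theorem Xi_mulVec (a : Matrix κ κ K) (v : κ → K) :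
    D.Xi a *ᵥ v = a *ᵥ v + (D.l ⬝ᵥ (a *ᵥ v) + D.l ⬝ᵥ v) • D.e0 := by
  unfold Xi
  rw [add_mulVec, vecMulVec_mulVec', add_dotProduct, dotProduct_mulVec]

theorem Xi_one : D.Xi 1 = 1 := by
  rw [Matrix.ext_iff_mulVec]
  intro v
  rw [Xi_mulVec, one_mulVec, D.add_self, zero_smul, add_zero]

theorem Xi_mul (a b : Matrix κ κ K) (ha : a *ᵥ D.e0 = D.e0) : D.Xi a * D.Xi b = D.Xi (a * b) := by
  rw [Matrix.ext_iff_mulVec]
  intro v
  rw [← mulVec_mulVec, Xi_mulVec, Xi_mulVec, Xi_mulVec, ← mulVec_mulVec]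
  simp only [mulVec_add, mulVec_smul, ha, dotProduct_add, dotProduct_smul, D.le, smul_eq_mul,
    mul_one]
  rw [add_assoc, ← add_smul]
  congr 2
  have := D.two
  linear_combination (D.l ⬝ᵥ (b *ᵥ v) + D.l ⬝ᵥ (b *ᵥ v) + D.l ⬝ᵥ v) * this

end OddData

end Cfsg.Agent.Lib.Helper67.GI
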