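import Cfsg.Agent.Lib.Helper67.GIOdd2a

set_option autoImplicit false

/-! Abstract core of rung ODD2, part 2: the isomorphism. -/

namespace Cfsg.Agent.Lib.Helper67.GI

open Matrix MatrixGroups Cfsg.Agent.Lib.Helper50.GI

variable {κ : Type} [Fintype κ] [DecidableEq κ] {K : Type*} [Field K]

omit [DecidableEq κ] in
theorem bf_smul_left (N : Matrix κ κ K) (c : K) (u v : κ → K) :
    bf N (c • u) v = c * bf N u v := by
  unfold bf
  rw [smul_dotProduct, smul_eq_mul]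

namespace OddData

variable (D : OddData κ K)

/-- `Xi` as an element of `GL`. -/
def XiGL (h : GL κ K) (hh : h ∈ isoQ D.Q) : GL κ K :=
  ⟨D.Xi h.1, D.Xi (h⁻¹).1,
    by rw [D.Xi_mul _ _ (D.e0_isoQ hh), ← Units.val_mul, mul_inv_cancel, Units.val_one, D.Xi_one],
    by rw [D.Xi_mul _ _ (D.e0_isoQ (inv_mem hh)), ← Units.val_mul, inv_mul_cancel, Units.val_one,
      D.Xi_one]⟩

theorem XiGL_mem (h : GL κ K) (hh : h ∈ isoQ D.Q) : D.XiGL h hh ∈ isoB D.N := by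
  intro u v
  show bf D.N (D.Xi h.1 *ᵥ u) (D.Xi h.1 *ᵥ v) = bf D.N u v
  rw [Xi_mulVec, Xi_mulVec]
  simp only [bf_add_left, bf_add_right, bf_smul_left, bf_smul_right, D.Be, D.le]
  rw [bf_comm D.symm (h.1 *ᵥ u) D.e0, D.Be]
  have h1 := D.P_isoQ hh u v
  have := D.two
  set x := D.l ⬝ᵥ (h.1 *ᵥ u)
  set y := D.l ⬝ᵥ (h.1 *ᵥ v)
  set a := D.l ⬝ᵥ u
  set b := D.l ⬝ᵥ v
  linear_combination h1 + (x * y + b * x + a * y + a * b) * this

/-- the homomorphism. -/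
def XiHom : ↥(isoQ D.Q) →* ↥(isoB D.N) where
  toFun h := ⟨D.XiGL h.1 h.2, D.XiGL_mem h.1 h.2⟩
  map_one' := Subtype.ext (Units.ext D.Xi_one)
  map_mul' a b := Subtype.ext (Units.ext (D.Xi_mul _ _ (D.e0_isoQ a.2)).symm)

theorem XiHom_injective : Function.Injective D.XiHom := by
  rw [injective_iff_map_eq_one]
  intro h hh
  apply Subtype.ext
  apply eq_one_of_mulVec
  intro v
  have h1 : D.Xi h.1.1 *ᵥ v = v := by
    have : D.Xi h.1.1 = 1 := congrArg (fun x : ↥(isoB D.N) => x.1.1) hh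
    rw [this, one_mulVec]
  rw [Xi_mulVec] at h1
  set ν := D.l ⬝ᵥ (h.1.1 *ᵥ v) + D.l ⬝ᵥ v with hν
  have h2 := D.Q_add_e0 (h.1.1 *ᵥ v) ν
  rw [h1, h.2 v] at h2
  have h3 : ν = 0 := by
    have : ν ^ 2 = 0 := by linear_combination -h2
    exact pow_eq_zero_iff two_ne_zero |>.mp this
  rw [h3, zero_smul, add_zero] at h1
  exact h1

include D in
theorem sum_sq {α : Type*} (s : Finset α) (f : α → K) : (∑ i ∈ s, f i) ^ 2 = ∑ i ∈ s, f i ^ 2 := by
  classical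
  induction s using Finset.induction_on with
  | empty => simp
  | insert a s ha ih =>
    rw [Finset.sum_insert ha, Finset.sum_insert ha, ← ih]
    have := D.two
    linear_combination (f a * ∑ i ∈ s, f i) * this

theorem XiHom_surjective (hsq : ∀ c : K, ∃ d : K, d ^ 2 = c) : Function.Surjective D.XiHom := by
  rintro ⟨g, hg⟩
  have hge := D.e0_isoB hg
  have hDadd : ∀ u v : κ → K, D.Q (u + v) + D.Q (g.1 *ᵥ (u + v)) =
      (D.Q u + D.Q (g.1 *ᵥ u)) + (D.Q v + D.Q (g.1 *ᵥ v)) := by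
    intro u v
    rw [mulVec_add, D.Qadd, D.Qadd, hg, D.l_isoB hg, D.l_isoB hg]
    have := D.two
    linear_combination (bf D.N u v + D.l ⬝ᵥ u * D.l ⬝ᵥ v) * this
  let Dh : (κ → K) →+ K := AddMonoidHom.mk' (fun v => D.Q v + D.Q (g.1 *ᵥ v)) hDadd
  have hDh : ∀ v, Dh v = D.Q v + D.Q (g.1 *ᵥ v) := fun v => rfl
  have hDsmul : ∀ (c : K) v, Dh (c • v) = c ^ 2 * Dh v := by
    intro c v
    rw [hDh, hDh, mulVec_smul, D.Qsmul, D.Qsmul]; ring
  choose μ hμ using fun j : κ => hsq (Dh (Pi.single j 1))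
  have hμv : ∀ v : κ → K, (μ ⬝ᵥ v) ^ 2 = Dh v := by
    intro v
    have hv : v = ∑ i, v i • (Pi.single i (1 : K) : κ → K) := by
      funext j
      simp [Finset.sum_apply, Pi.single_apply]
    conv_rhs => rw [hv]
    rw [map_sum, dotProduct, D.sum_sq]
    apply Finset.sum_congr rfl
    intro j _
    rw [hDsmul, ← hμ, mul_pow, mul_comm]
  have hμe : μ ⬝ᵥ D.e0 = 0 := by
    have : (μ ⬝ᵥ D.e0) ^ 2 = 0 := by rw [hμv, hDh, hge, D.add_self]
    exact pow_eq_zero_iff two_ne_zero |>.mp this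
  let T : Matrix κ κ K := 1 + vecMulVec D.e0 μ
  have hT : ∀ v, T *ᵥ v = v + (μ ⬝ᵥ v) • D.e0 := fun v => by
    show (1 + vecMulVec D.e0 μ) *ᵥ v = _
    rw [add_mulVec, one_mulVec, vecMulVec_mulVec']
  have hTT : T * T = 1 := by
    rw [Matrix.ext_iff_mulVec]
    intro v
    rw [← mulVec_mulVec, hT, hT, dotProduct_add, dotProduct_smul, hμe, smul_zero, add_zero,
      add_assoc, ← add_smul, D.add_self, zero_smul, add_zero, one_mulVec]
  let TG : GL κ K := ⟨T, T, hTT, hTT⟩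
  have hh : ∀ v, (g * TG).1 *ᵥ v = g.1 *ᵥ v + (μ ⬝ᵥ v) • D.e0 := fun v => by
    show (g.1 * T) *ᵥ v = _
    rw [← mulVec_mulVec, hT, mulVec_add, mulVec_smul, hge]
  have hmem : g * TG ∈ isoQ D.Q := by
    intro v
    rw [hh, D.Q_add_e0, hμv, hDh]
    have := D.two
    linear_combination (D.Q (g.1 *ᵥ v)) * this
  refine ⟨⟨g * TG, hmem⟩, ?_⟩
  apply Subtype.ext
  apply Units.ext
  show D.Xi (g * TG).1 = g.1
  rw [Matrix.ext_iff_mulVec]
  intro v
  rw [Xi_mulVec, hh, dotProduct_add, dotProduct_smul, D.le, D.l_isoB hg, add_assoc, ← add_smul]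
  have : μ ⬝ᵥ v + (D.l ⬝ᵥ v + (μ ⬝ᵥ v) • (1 : K) + D.l ⬝ᵥ v) = 0 := by
    have := D.two
    simp only [smul_eq_mul]
    linear_combination (μ ⬝ᵥ v + D.l ⬝ᵥ v) * this
  rw [this, zero_smul, add_zero]

theorem isoQ_equiv_isoB (hsq : ∀ c : K, ∃ d : K, d ^ 2 = c) :
    Nonempty (↥(isoQ D.Q) ≃* ↥(isoB D.N)) :=
  ⟨MulEquiv.ofBijective D.XiHom ⟨D.XiHom_injective, D.XiHom_surjective hsq⟩⟩

end OddData

end Cfsg.Agent.Lib.Helper67.GI
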