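import Cfsg.Agent.Lib.Helper50.GIForms

set_option autoImplicit false

/-! `projQuot H ≃* I` when `H = I × scalars`. -/

namespace Cfsg.Agent.Lib.Helper67.GI

open Matrix MatrixGroups Cfsg.Agent.Lib.Helper50.GI

variable {ι : Type} [Fintype ι] [DecidableEq ι] {K : Type*} [Field K]

/-- If every element of `H` is an element of `I ≤ H` times a scalar, and `I` contains no scalar
but `1`, then `I ≃* projQuot H`. -/
theorem projQuot_equiv_of_isometries (H I : Subgroup (GL ι K)) (hIH : I ≤ H)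
    (hdec : ∀ h ∈ H, ∃ i ∈ I, i⁻¹ * h ∈ Cfsg.Geo.scalars ι K)
    (hint : ∀ z ∈ Cfsg.Geo.scalars ι K, z ∈ I → z = 1) :
    Nonempty (↥I ≃* Cfsg.projQuot H) := by
  let f : ↥I →* Cfsg.projQuot H :=
    (QuotientGroup.mk' ((Cfsg.Geo.scalars ι K).subgroupOf H)).comp (Subgroup.inclusion hIH)
  refine ⟨MulEquiv.ofBijective f ⟨?_, ?_⟩⟩
  · rw [injective_iff_map_eq_one]
    intro i hi
    have h1 : Subgroup.inclusion hIH i ∈ (Cfsg.Geo.scalars ι K).subgroupOf H :=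
      (QuotientGroup.eq_one_iff _).mp hi
    rw [Subgroup.mem_subgroupOf] at h1
    exact Subtype.ext (hint i.1 h1 i.2)
  · intro x
    obtain ⟨h, rfl⟩ := QuotientGroup.mk'_surjective _ x
    obtain ⟨i, hi, hz⟩ := hdec h.1 h.2
    refine ⟨⟨i, hi⟩, ?_⟩
    show QuotientGroup.mk' _ (Subgroup.inclusion hIH ⟨i, hi⟩) = QuotientGroup.mk' _ h
    apply QuotientGroup.eq.mpr
    rw [Subgroup.mem_subgroupOf]
    exact hz

/-- the scalar matrix `d • 1` as an element of `GL`. -/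
noncomputable def scal (ι : Type) [Fintype ι] [DecidableEq ι] {K : Type*} [Field K] (d : Kˣ) :
    GL ι K :=
  Units.map (Matrix.scalar ι : K →+* Matrix ι ι K).toMonoidHom d

theorem scal_mem (d : Kˣ) : scal ι d ∈ Cfsg.Geo.scalars ι K := ⟨d, rfl⟩

theorem scal_mulVec (d : Kˣ) (v : ι → K) : (scal ι d).1 *ᵥ v = (d : K) • v := by
  show (Matrix.scalar ι (d : K)) *ᵥ v = _
  rw [Matrix.scalar_apply, ← Matrix.smul_one_eq_diagonal, smul_mulVec, one_mulVec]

theorem mulVec_of_mem_scalars {z : GL ι K} (hz : z ∈ Cfsg.Geo.scalars ι K) :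
    ∃ d : Kˣ, ∀ v : ι → K, z.1 *ᵥ v = (d : K) • v := by
  obtain ⟨d, rfl⟩ := hz
  exact ⟨d, fun v => scal_mulVec d v⟩

theorem eq_one_of_mulVec {z : GL ι K} (h : ∀ v : ι → K, z.1 *ᵥ v = v) : z = 1 := by
  apply Units.ext
  rw [Matrix.ext_iff_mulVec]
  intro v
  rw [h v]
  simp

end Cfsg.Agent.Lib.Helper67.GI
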