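import Cfsg.Agent.Lib.Helper67.MilBIL

/-!
# Ladder MIL, rung AX1
-/

set_option autoImplicit false

namespace Cfsg.Agent.Lib.Lead.Mil

open Cfsg.Lie

variable {D : ChevalleyDatum}

theorem ax_sm_sq (K : Type*) [CommRing K] {r s k : Fin D.nroots} {c : K} (h : SmD D K r s k c) : c * c = 1 := by
  obtain ⟨-, -, c0, hc0, -, rfl⟩ := h
  rcases hc0 with rfl | rfl <;> simp

theorem ax_sm_swap (T : MilTab D) (K : Type*) [CommRing K] {r s k : Fin D.nroots} {c : K}
    (h : SmD D K r s k c) : SmD D K s r k (-c) := by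
  obtain ⟨h1, h2, c0, hc0, h3, rfl⟩ := h
  have h1' : ip D s r = -1 := by rw [T.ip_symm s s.2 r r.2]; exact h1
  obtain ⟨k', c', hk', hc', h4, h5, h6⟩ := exists_sum_raw T s.2 r.2 h1'
  rw [h3] at h4
  simp only [List.cons.injEq, Prod.mk.injEq, and_true] at h4
  obtain ⟨rfl, rfl⟩ := h4
  refine ⟨h1', fun i hi => by rw [h2 i hi]; ring, -c0, by omega, h5, ?_⟩
  push_cast
  ring

theorem ax_sm_cm (T : MilTab D) (K : Type*) [CommRing K] {r s k : Fin D.nroots} {c : K}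
    (h : SmD D K r s k c) : CmD D k r ∧ CmD D k s := by
  obtain ⟨h1, h2, -⟩ := h
  unfold CmD
  rw [ip_add_left h2 r, ip_add_left h2 s, T.ip_self r r.2, T.ip_self s s.2, T.ip_symm s s.2 r r.2, h1]
  constructor <;> norm_num

/-- same `r, s` => same `k, c` -/
theorem smD_unique (K : Type*) [CommRing K] {r s k k' : Fin D.nroots} {c c' : K}
    (h : SmD D K r s k c) (h' : SmD D K r s k' c') : k' = k ∧ c' = c := by
  obtain ⟨-, -, c0, -, h3, rfl⟩ := h
  obtain ⟨-, -, c0', -, h3', rfl⟩ := h'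
  rw [h3] at h3'
  simp only [List.cons.injEq, Prod.mk.injEq, and_true] at h3'
  obtain ⟨h4, rfl⟩ := h3'
  exact ⟨(Fin.ext h4).symm, rfl⟩

end Cfsg.Agent.Lib.Lead.Mil
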