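import Cfsg.Agent.Lib.Lead.Mil.Inst

/-!
# Ladder MIL, rung BIL: bilinearity of `ip`, injectivity of `vec`, sums and differences
-/

set_option autoImplicit false

namespace Cfsg.Agent.Lib.Lead.Mil

open Cfsg.Lie

variable {D : ChevalleyDatum}

theorem ip_congr_left {r s : ℕ} (h : ∀ i < D.rank, vec D r i = vec D s i) (y : ℕ) :
    ip D r y = ip D s y := by
  unfold ip
  congr 1
  apply List.map_congr_left
  intro i hi
  rw [h i (List.mem_range.mp hi)]

theorem ip_add_left {k r s : ℕ} (h : ∀ i < D.rank, vec D k i = vec D r i + vec D s i) (y : ℕ) :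
    ip D k y = ip D r y + ip D s y := by
  unfold ip
  rw [← List.sum_map_add]
  congr 1
  apply List.map_congr_left
  intro i hi
  rw [h i (List.mem_range.mp hi)]
  ring

theorem ip_neg_left (T : MilTab D) {r : ℕ} (hr : r < D.nroots) (y : ℕ) : ip D (D.neg r) y = - ip D r y := by
  have h0 : ip D (D.neg r) y + ip D r y = 0 := by
    unfold ip
    rw [← List.sum_map_add]
    apply List.sum_eq_zero
    intro x hx
    obtain ⟨i, hi, rfl⟩ := List.mem_map.mp hx
    rw [T.vec_neg r hr i (List.mem_range.mp hi)]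
    ring
  linarith

theorem ip_add_right (T : MilTab D) {k r s y : ℕ} (hk : k < D.nroots) (hr : r < D.nroots) (hs : s < D.nroots)
    (hy : y < D.nroots) (h : ∀ i < D.rank, vec D k i = vec D r i + vec D s i) :
    ip D y k = ip D y r + ip D y s := by
  rw [T.ip_symm y hy k hk, T.ip_symm y hy r hr, T.ip_symm y hy s hs]
  exact ip_add_left h y

theorem ip_neg_right (T : MilTab D) {r y : ℕ} (hr : r < D.nroots) (hy : y < D.nroots) :
    ip D y (D.neg r) = - ip D y r := by
  rw [T.ip_symm y hy _ (T.neg_lt r hr), T.ip_symm y hy r hr]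
  exact ip_neg_left T hr y

theorem vec_inj (T : MilTab D) {r s : ℕ} (hr : r < D.nroots) (hs : s < D.nroots)
    (h : ∀ i < D.rank, vec D r i = vec D s i) : r = s := by
  have h1 : ip D r s = 2 := by
    rw [ip_congr_left h s]
    exact T.ip_self s hs
  exact ((T.ip_le r hr s hs).2 h1).symm

theorem ip_ge (T : MilTab D) {r s : ℕ} (hr : r < D.nroots) (hs : s < D.nroots) :
    -2 ≤ ip D r s ∧ (ip D r s = -2 → s = D.neg r) := by
  have h1 := T.ip_le (D.neg r) (T.neg_lt r hr) s hs
  rw [ip_neg_left T hr s] at h1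
  refine ⟨by linarith [h1.1], fun h => h1.2 (by linarith)⟩

theorem neg_neg' (T : MilTab D) {r : ℕ} (hr : r < D.nroots) : D.neg (D.neg r) = r := by
  apply vec_inj T (T.neg_lt _ (T.neg_lt r hr)) hr
  intro i hi
  rw [T.vec_neg _ (T.neg_lt r hr) i hi, T.vec_neg r hr i hi]
  ring

/-- the raw form of the existence of sums -/
theorem exists_sum_raw (T : MilTab D) {r s : ℕ} (hr : r < D.nroots) (hs : s < D.nroots)
    (h : ip D r s = -1) :
    ∃ (k : ℕ) (c : ℤ), k < D.nroots ∧ (c = 1 ∨ c = -1) ∧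
      D.commTerms r s = [(k, c, 1, 1)] ∧ D.commTerms s r = [(k, -c, 1, 1)] ∧
      ∀ i < D.rank, vec D k i = vec D r i + vec D s i := by
  have h1 : s ≠ r := by
    rintro rfl
    rw [T.ip_self s hs] at h
    omega
  have h2 : s ≠ D.neg r := by
    rintro rfl
    rw [ip_neg_right T hr hr, T.ip_self r hr] at h
    omega
  rcases T.comm r hr s hs h1 h2 with h3 | h3
  · omega
  · exact h3.2

/-- sums exist -/
theorem exists_sum (T : MilTab D) (K : Type*) [CommRing K] (r s : Fin D.nroots) (h : ip D r s = -1) :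
    ∃ (k : Fin D.nroots) (c : K), SmD D K r s k c := by
  obtain ⟨k, c, hk, hc, h1, h2, h3⟩ := exists_sum_raw T r.2 s.2 h
  refine ⟨⟨k, hk⟩, -((-c : ℤ) : K), h, h3, -c, ?_, h2, rfl⟩
  omega

/-- differences exist -/
theorem exists_sub (T : MilTab D) {r s : ℕ} (hr : r < D.nroots) (hs : s < D.nroots) (h : ip D r s = 1) :
    ∃ k < D.nroots, ∀ i < D.rank, vec D r i = vec D s i + vec D k i := by
  have h1 : ip D r (D.neg s) = -1 := by
    rw [ip_neg_right T hs hr, h]
  obtain ⟨k, c, hk, hc, -, -, h3⟩ := exists_sum_raw T hr (T.neg_lt s hs) h1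
  refine ⟨k, hk, fun i hi => ?_⟩
  rw [h3 i hi, T.vec_neg s hs i hi]
  ring

/-- a sum is determined by its coordinates -/
theorem smD_of_vec (T : MilTab D) (K : Type*) [CommRing K] (r s k : Fin D.nroots) (h : ip D r s = -1)
    (hv : ∀ i < D.rank, vec D k i = vec D r i + vec D s i) : ∃ c : K, SmD D K r s k c := by
  obtain ⟨k', c, hk'⟩ := exists_sum T K r s h
  have : k' = k := by
    apply Fin.ext
    apply vec_inj T k'.2 k.2
    intro i hi
    rw [hk'.2.1 i hi, hv i hi]
  subst this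
  exact ⟨c, hk'⟩

end Cfsg.Agent.Lib.Lead.Mil
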