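import Cfsg.Agent.Lib.Helper67.MilAX1

/-!
# Ladder MIL, rung CHAINR
-/

set_option autoImplicit false

namespace Cfsg.Agent.Lib.Lead.Mil

open Cfsg.Lie

variable {D : ChevalleyDatum}

theorem ax_chainR (T : MilTab D) (K : Type*) [CommRing K] {g d a : Fin D.nroots} {c : K}
    (h : SmD D K g d a c) : ∃ (d1 d2 e : Fin D.nroots) (c1 c2 c3 : K),
    SmD D K d1 d2 d c1 ∧ SmD D K g d1 e c2 ∧ CmD D g d2 ∧ SmD D K e d2 a c3 ∧ CmD D e d := by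
  obtain ⟨h1, h2, -⟩ := h
  obtain ⟨d2, hd2, h3, h4⟩ := T.ex2 g g.2 d d.2 h1
  obtain ⟨d1, hd1, h5⟩ := exists_sub T d.2 hd2 h3
  have e1 : ip D d d2 = ip D d2 d2 + ip D d1 d2 := ip_add_left h5 d2
  rw [T.ip_self d2 hd2, h3] at e1
  have e1' : ip D d1 d2 = -1 := by linarith
  have e2 : ip D g d = ip D g d2 + ip D g d1 := ip_add_right T d.2 hd2 hd1 g.2 h5
  rw [h1, h4] at e2
  have e2' : ip D g d1 = -1 := by linarith
  have e3 : ip D d d = ip D d d2 + ip D d d1 := ip_add_right T d.2 hd2 hd1 d.2 h5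
  rw [T.ip_self d d.2, h3] at e3
  have e3' : ip D d1 d = 1 := by rw [T.ip_symm d1 hd1 d d.2]; linarith
  obtain ⟨c1, hc1⟩ := smD_of_vec T K ⟨d1, hd1⟩ ⟨d2, hd2⟩ d e1' (fun i hi => by
    show vec D d i = vec D d1 i + vec D d2 i
    rw [h5 i hi]; ring)
  obtain ⟨e, c2, hc2⟩ := exists_sum T K g ⟨d1, hd1⟩ e2'
  have he : ∀ i < D.rank, vec D e i = vec D g i + vec D d1 i := hc2.2.1
  have e4 : ip D e d2 = -1 := by
    rw [ip_add_left he d2, h4, e1']; norm_num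
  have e5 : ip D e d = 0 := by
    rw [ip_add_left he d, h1, e3']; norm_num
  obtain ⟨c3, hc3⟩ := smD_of_vec T K e ⟨d2, hd2⟩ a e4 (fun i hi => by
    show vec D a i = vec D e i + vec D d2 i
    rw [h2 i hi, he i hi, h5 i hi]; ring)
  refine ⟨⟨d1, hd1⟩, ⟨d2, hd2⟩, e, c1, c2, c3, hc1, hc2, ?_, hc3, ?_⟩
  · show 0 ≤ ip D g d2
    rw [h4]
  · show 0 ≤ ip D e d
    rw [e5]

end Cfsg.Agent.Lib.Lead.Mil
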