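import Cfsg.Agent.Lib.Helper67.MilAX1

/-!
# Ladder MIL, rung CONN
-/

set_option autoImplicit false

namespace Cfsg.Agent.Lib.Lead.Mil

open Cfsg.Lie

variable {D : ChevalleyDatum}

/-- the third alternative of `ax_conn` -/
theorem ax_conn_aux (T : MilTab D) (K : Type*) [CommRing K] {g d g' d' a : Fin D.nroots}
    (h1 : ip D g d = -1) (h2 : ∀ i < D.rank, vec D a i = vec D g i + vec D d i)
    (h2' : ∀ i < D.rank, vec D a i = vec D g' i + vec D d' i)
    (hA : ip D g' g = 1) (hB : ip D g' d = 0) :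
    ∃ (m : Fin D.nroots) (c1 c2 : K), SmD D K g' m g c1 ∧ SmD D K m d d' c2 ∧ CmD D g' d ∧ CmD D g d' := by
  have hA' : ip D g g' = 1 := by rw [T.ip_symm g g.2 g' g'.2]; exact hA
  obtain ⟨m, hm, h5⟩ := exists_sub T g.2 g'.2 hA'
  have e1 : ip D g' g = ip D g' g' + ip D g' m := ip_add_right T g.2 g'.2 hm g'.2 h5
  rw [T.ip_self g' g'.2, hA] at e1
  have e1' : ip D g' m = -1 := by linarith
  have e2 : ip D g d = ip D g' d + ip D m d := ip_add_left h5 d
  rw [h1, hB] at e2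
  have e2' : ip D m d = -1 := by linarith
  have e3 : ip D g a = ip D g g + ip D g d := ip_add_right T a.2 g.2 d.2 g.2 h2
  have e4 : ip D g a = ip D g g' + ip D g d' := ip_add_right T a.2 g'.2 d'.2 g.2 h2'
  rw [T.ip_self g g.2, h1] at e3
  rw [hA'] at e4
  obtain ⟨c1, hc1⟩ := smD_of_vec T K g' ⟨m, hm⟩ g e1' h5
  obtain ⟨c2, hc2⟩ := smD_of_vec T K ⟨m, hm⟩ d d' e2' (fun i hi => by
    show vec D d' i = vec D m i + vec D d i
    have := h2 i hi
    rw [h2' i hi, h5 i hi] at this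
    linarith)
  refine ⟨⟨m, hm⟩, c1, c2, hc1, hc2, ?_, ?_⟩
  · show 0 ≤ ip D g' d
    rw [hB]
  · show 0 ≤ ip D g d'
    linarith

theorem ax_conn (T : MilTab D) (K : Type*) [CommRing K] {g d g' d' a : Fin D.nroots} {c c' : K}
    (h : SmD D K g d a c) (h' : SmD D K g' d' a c') :
    (g' = g ∧ d' = d ∧ c' = c) ∨ (g' = d ∧ d' = g ∧ c' = -c) ∨
    (∃ (m : Fin D.nroots) (c1 c2 : K), SmD D K g' m g c1 ∧ SmD D K m d d' c2 ∧ CmD D g' d ∧ CmD D g d') ∨
    (∃ (m : Fin D.nroots) (c1 c2 : K), SmD D K g' m d c1 ∧ SmD D K m g d' c2 ∧ CmD D g' g ∧ CmD D d d') := by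
  have h1 := h.1
  have h2 := h.2.1
  have h1' := h'.1
  have h2' := h'.2.1
  have e1 : ip D g' a = ip D g' g' + ip D g' d' := ip_add_right T a.2 g'.2 d'.2 g'.2 h2'
  have e2 : ip D g' a = ip D g' g + ip D g' d := ip_add_right T a.2 g.2 d.2 g'.2 h2
  rw [T.ip_self g' g'.2, h1'] at e1
  have b1 := T.ip_le g' g'.2 g g.2
  have b2 := T.ip_le g' g'.2 d d.2
  have hcases : ip D g' g = 2 ∨ ip D g' d = 2 ∨ (ip D g' g = 1 ∧ ip D g' d = 0) ∨
      (ip D g' g = 0 ∧ ip D g' d = 1) := by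
    have := b1.1
    have := b2.1
    omega
  rcases hcases with hc | hc | ⟨hA, hB⟩ | ⟨hA, hB⟩
  · left
    have hg : g' = g := (Fin.ext (b1.2 hc)).symm
    subst hg
    have hd : d' = d := by
      apply Fin.ext
      apply vec_inj T d'.2 d.2
      intro i hi
      have := h2 i hi
      rw [h2' i hi] at this
      linarith
    subst hd
    exact ⟨rfl, rfl, (smD_unique K h h').2⟩
  · right; left
    have hg : g' = d := (Fin.ext (b2.2 hc)).symm
    subst hg
    have hd : d' = g := by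
      apply Fin.ext
      apply vec_inj T d'.2 g.2
      intro i hi
      have := h2 i hi
      rw [h2' i hi] at this
      linarith
    subst hd
    exact ⟨rfl, rfl, (smD_unique K (ax_sm_swap T K h) h').2⟩
  · right; right; left
    exact ax_conn_aux T K h1 h2 h2' hA hB
  · right; right; right
    have h1s : ip D d g = -1 := by rw [T.ip_symm d d.2 g g.2]; exact h1
    exact ax_conn_aux T K h1s (fun i hi => by rw [h2 i hi]; ring) h2' hB hA

end Cfsg.Agent.Lib.Lead.Mil
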