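import Cfsg.Agent.Lib.Helper67.MilAX1

/-!
# Ladder MIL, rung SPLIT
-/

set_option autoImplicit false

namespace Cfsg.Agent.Lib.Lead.Mil

open Cfsg.Lie

variable {D : ChevalleyDatum}

theorem ax_split (T : MilTab D) (K : Type*) [CommRing K] {r s : Fin D.nroots} (h : CmD D r s) :
    ∃ (a b : Fin D.nroots) (c : K), SmD D K a b s c ∧ CmD D r a ∧ CmD D r b := by
  unfold CmD at h
  obtain ⟨a, ha, h1, h2, h3⟩ := T.ex1 r r.2 s s.2 h
  obtain ⟨b, hb, h4⟩ := exists_sub T s.2 ha h1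
  have e1 : ip D a s = ip D a a + ip D a b := ip_add_right T s.2 ha hb ha h4
  have e2 : ip D r s = ip D r a + ip D r b := ip_add_right T s.2 ha hb r.2 h4
  rw [T.ip_self a ha, T.ip_symm a ha s s.2, h1] at e1
  have e3 : ip D a b = -1 := by linarith
  obtain ⟨c, hc⟩ := smD_of_vec T K ⟨a, ha⟩ ⟨b, hb⟩ s e3 h4
  refine ⟨⟨a, ha⟩, ⟨b, hb⟩, c, hc, h2, ?_⟩
  unfold CmD
  show 0 ≤ ip D r b
  linarith

end Cfsg.Agent.Lib.Lead.Mil
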