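import Mathlib
import Cfsg.Agent.Lib.Helper38.UFDefs

set_option autoImplicit false

/-! Rung L2a of the ladder UF: the kernel of `GL_d(Z/p^n) → GL_d(Z/p)` is a `p`-group. -/

namespace Cfsg.Agent.Lib.Helper67.UF

open Cfsg.Agent.Lib.Helper38.UF

/-- an element of `Z/p^n` reducing to `0` mod `p` is a multiple of `p`. -/
theorem exists_eq_p_mul (p n : ℕ) [Fact p.Prime] (hn : n ≠ 0) (a : ZMod (p ^ n))
    (ha : ZMod.castHom (dvd_pow_self p hn) (ZMod p) a = 0) :
    ∃ z : ZMod (p ^ n), a = (p : ZMod (p ^ n)) * z := by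
  haveI : NeZero (p ^ n) := ⟨pow_ne_zero _ (Fact.out : p.Prime).ne_zero⟩
  have h1 : a = ((a.val : ℕ) : ZMod (p ^ n)) := (ZMod.natCast_zmod_val a).symm
  rw [h1, map_natCast, ZMod.natCast_eq_zero_iff] at ha
  obtain ⟨c, hc⟩ := ha
  refine ⟨(c : ZMod (p ^ n)), ?_⟩
  rw [h1, hc]
  push_cast
  rfl

/-- a matrix over `Z/p^n` reducing to `0` mod `p` is a multiple of `p`. -/
theorem exists_eq_p_smul (p d n : ℕ) [Fact p.Prime] (hn : n ≠ 0)
    (M : Matrix (Fin d) (Fin d) (ZMod (p ^ n)))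
    (hM : (ZMod.castHom (dvd_pow_self p hn) (ZMod p)).mapMatrix M = 0) :
    ∃ Z : Matrix (Fin d) (Fin d) (ZMod (p ^ n)), M = (p : ZMod (p ^ n)) • Z := by
  have h : ∀ i j, ∃ z : ZMod (p ^ n), M i j = (p : ZMod (p ^ n)) * z := by
    intro i j
    apply exists_eq_p_mul p n hn
    have := congrFun (congrFun hM i) j
    simpa using this
  choose Z hZ using h
  refine ⟨Matrix.of Z, ?_⟩
  ext i j
  simp [hZ i j]

theorem isPGroup_ker_red (p d n : ℕ) [Fact p.Prime] (hn : n ≠ 0) :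
    IsPGroup p (red p d n hn).ker := by
  set φ := (ZMod.castHom (dvd_pow_self p hn) (ZMod p)).mapMatrix (m := Fin d) with hφ
  rintro ⟨g, hg⟩
  have hg1 : φ (g : Matrix (Fin d) (Fin d) (ZMod (p ^ n))) = 1 := by
    have := congrArg (fun u : GL (Fin d) (ZMod p) => (u : Matrix (Fin d) (Fin d) (ZMod p)))
      (MonoidHom.mem_ker.mp hg)
    simpa [red, hφ] using this
  set X : Matrix (Fin d) (Fin d) (ZMod (p ^ n)) :=
    (g : Matrix (Fin d) (Fin d) (ZMod (p ^ n))) with hX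
  have key : ∀ k : ℕ, ∃ Y : Matrix (Fin d) (Fin d) (ZMod (p ^ n)),
      X ^ (p ^ k) - 1 = ((p : ZMod (p ^ n)) ^ (k + 1)) • Y := by
    intro k
    induction k with
    | zero =>
      obtain ⟨Z, hZ⟩ := exists_eq_p_smul p d n hn (X - 1) (by
        change φ (X - 1) = 0
        rw [map_sub, hg1, map_one, sub_self])
      exact ⟨Z, by simpa using hZ⟩
    | succ k ih =>
      obtain ⟨Y, hY⟩ := ih
      set W := X ^ (p ^ k) with hW
      have hW1 : φ W = 1 := by rw [hW, map_pow, hg1, one_pow]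
      obtain ⟨Z, hZ⟩ := exists_eq_p_smul p d n hn (∑ i ∈ Finset.range p, W ^ i) (by
        change φ _ = 0
        rw [map_sum]
        simp only [map_pow, hW1, one_pow, Finset.sum_const, Finset.card_range]
        ext i j
        simp [Matrix.smul_apply])
      refine ⟨Y * Z, ?_⟩
      rw [pow_succ p k, pow_mul, ← hW, ← mul_geom_sum, hY, hZ, Matrix.smul_mul, Matrix.mul_smul,
        smul_smul, ← pow_succ]
  obtain ⟨k, rfl⟩ : ∃ k, n = k + 1 := ⟨n - 1, by omega⟩
  obtain ⟨Y, hY⟩ := key k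
  refine ⟨k, ?_⟩
  have h0 : ((p : ZMod (p ^ (k + 1))) ^ (k + 1)) = 0 := by
    have := ZMod.natCast_self (p ^ (k + 1))
    rw [Nat.cast_pow] at this
    exact this
  rw [h0, zero_smul, sub_eq_zero] at hY
  apply Subtype.ext
  apply Units.ext
  simpa using hY

end Cfsg.Agent.Lib.Helper67.UF
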