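import Mathlib
import Cfsg.Agent.Lib.Helper38.UFDefs

set_option autoImplicit false

/-! Rung L2b of the ladder UF: `GL_d(Z/p^n) → GL_d(Z/p)` is onto. -/

namespace Cfsg.Agent.Lib.Helper67.UF

open Cfsg.Agent.Lib.Helper38.UF

/-- an element of `Z/p^n` reducing to a unit mod `p` is a unit. -/
theorem isUnit_of_isUnit_cast (p n : ℕ) [Fact p.Prime] (hn : n ≠ 0) (a : ZMod (p ^ n))
    (ha : IsUnit (ZMod.castHom (dvd_pow_self p hn) (ZMod p) a)) : IsUnit a := by
  haveI : NeZero (p ^ n) := ⟨pow_ne_zero _ (Fact.out : p.Prime).ne_zero⟩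
  have h1 : a = ((a.val : ℕ) : ZMod (p ^ n)) := (ZMod.natCast_zmod_val a).symm
  rw [h1, map_natCast, ZMod.isUnit_iff_coprime] at ha
  rw [h1, ZMod.isUnit_iff_coprime]
  exact Nat.Coprime.pow_right n ha

theorem red_surjective (p d n : ℕ) [Fact p.Prime] (hn : n ≠ 0) :
    Function.Surjective (red p d n hn) := by
  intro A
  have hs : Function.Surjective (ZMod.castHom (dvd_pow_self p hn) (ZMod p)) :=
    ZMod.ringHom_surjective _
  choose l hl using hs
  set B : Matrix (Fin d) (Fin d) (ZMod (p ^ n)) :=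
    Matrix.of fun i j => l ((A : Matrix (Fin d) (Fin d) (ZMod p)) i j) with hB
  have hBA : (ZMod.castHom (dvd_pow_self p hn) (ZMod p)).mapMatrix B
      = (A : Matrix (Fin d) (Fin d) (ZMod p)) := by
    ext i j
    simp [hB, hl]
  have hdet : IsUnit B.det := by
    apply isUnit_of_isUnit_cast p n hn
    rw [RingHom.map_det, hBA]
    exact (Matrix.isUnit_iff_isUnit_det _).mp A.isUnit
  refine ⟨Matrix.GeneralLinearGroup.mk'' B hdet, ?_⟩
  apply Units.ext
  have : ((red p d n hn (Matrix.GeneralLinearGroup.mk'' B hdet) : GL (Fin d) (ZMod p)) :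
      Matrix (Fin d) (Fin d) (ZMod p)) = (ZMod.castHom (dvd_pow_self p hn) (ZMod p)).mapMatrix B := by
    rfl
  rw [this, hBA]

end Cfsg.Agent.Lib.Helper67.UF
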