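import Mathlib
import Cfsg.Agent.Lib.Helper38.UFDefs
import Cfsg.Agent.Lib.Helper67.UFL2a

set_option autoImplicit false

/-! Rung L3 of the ladder UF. -/

namespace Cfsg.Agent.Lib.Helper67.UF

open Cfsg.Agent.Lib.Helper38.UF

theorem inU_of_lift {G : Type*} [Group G] [Finite G] {p d n : ℕ} [Fact p.Prime] (hn : n ≠ 0)
    (hd : 0 < d) (hcop : (Nat.card G).Coprime p) (ρ : G →* GL (Fin d) (ZMod p))
    (hfree : ∀ g : G, g ≠ 1 → ∀ v : Fin d → ZMod p,
      ((ρ g : GL (Fin d) (ZMod p)) : Matrix (Fin d) (Fin d) (ZMod p)).mulVec v = v → v = 0)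
    (σ : G →* GL (Fin d) (ZMod (p ^ n))) (hσ : ∀ g, red p d n hn (σ g) = ρ g) :
    ∃ x : G → ZMod (p ^ n), InU x ∧ x 1 = 1 := by
  set φ := (ZMod.castHom (dvd_pow_self p hn) (ZMod p)).mapMatrix (m := Fin d) with hφ
  have hφσ : ∀ g, φ ((σ g : GL (Fin d) (ZMod (p ^ n))) : Matrix (Fin d) (Fin d) (ZMod (p ^ n)))
      = ((ρ g : GL (Fin d) (ZMod p)) : Matrix (Fin d) (Fin d) (ZMod p)) := by
    intro g
    rw [← hσ g]
    rfl
  refine ⟨fun g => ((σ g : GL (Fin d) (ZMod (p ^ n))) : Matrix (Fin d) (Fin d) (ZMod (p ^ n)))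
    ⟨0, hd⟩ ⟨0, hd⟩, ?_, by simp⟩
  intro c hc g
  set m := orderOf c with hm
  set C : Matrix (Fin d) (Fin d) (ZMod (p ^ n)) :=
    ((σ c : GL (Fin d) (ZMod (p ^ n))) : Matrix (Fin d) (Fin d) (ZMod (p ^ n))) with hC
  set S : Matrix (Fin d) (Fin d) (ZMod (p ^ n)) := ∑ i ∈ Finset.range m, C ^ i with hS
  have hCm : C ^ m = 1 := by
    have : (σ c) ^ m = 1 := by rw [← map_pow, hm, pow_orderOf_eq_one, map_one]
    have := congrArg (fun u : GL (Fin d) (ZMod (p ^ n)) =>
      (u : Matrix (Fin d) (Fin d) (ZMod (p ^ n)))) this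
    simpa using this
  have hCS : C * S = S := by
    have := mul_geom_sum C m
    rw [hCm, sub_self, sub_mul, one_mul, sub_eq_zero] at this
    exact this
  have hCiS : ∀ i : ℕ, C ^ i * S = S := by
    intro i
    induction i with
    | zero => simp
    | succ i ih => rw [pow_succ, mul_assoc, hCS, ih]
  have hSS : S * S = (m : ZMod (p ^ n)) • S := by
    conv_lhs => rw [hS]
    rw [Finset.sum_mul]
    rw [← hS]
    simp only [hCiS, Finset.sum_const, Finset.card_range]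
    rw [Nat.cast_smul_eq_nsmul]
  -- the reduction of S vanishes
  have hφS : φ S = 0 := by
    have h1 : φ C * φ S = φ S := by rw [← map_mul, hCS]
    rw [hC, hφσ] at h1
    ext i j
    have := hfree c hc (fun i => φ S i j) (by
      ext i
      have := congrFun (congrFun h1 i) j
      rw [Matrix.mul_apply] at this
      simpa [Matrix.mulVec, dotProduct] using this)
    simpa using congrFun this i
  obtain ⟨Z, hZ⟩ := exists_eq_p_smul p d n hn S hφS
  have hpow : ∀ k : ℕ, S ^ (k + 1) = ((m : ZMod (p ^ n)) ^ k) • S := by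
    intro k
    induction k with
    | zero => simp
    | succ k ih => rw [pow_succ, ih, Matrix.smul_mul, hSS, smul_smul, ← pow_succ]
  obtain ⟨k, rfl⟩ : ∃ k, n = k + 1 := ⟨n - 1, by omega⟩
  have h0 : ((p : ZMod (p ^ (k + 1))) ^ (k + 1)) = 0 := by
    have := ZMod.natCast_self (p ^ (k + 1))
    rw [Nat.cast_pow] at this
    exact this
  have hSn : S ^ (k + 1) = 0 := by
    rw [hZ, smul_pow, h0, zero_smul]
  have hmu : IsUnit ((m : ZMod (p ^ (k + 1))) ^ k) := by
    apply IsUnit.pow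
    rw [ZMod.isUnit_iff_coprime]
    apply Nat.Coprime.pow_right
    exact Nat.Coprime.coprime_dvd_left (orderOf_dvd_natCard c) hcop
  have hS0 : S = 0 := by
    have := hpow k
    rw [hSn] at this
    exact (hmu.smul_eq_zero).mp this.symm
  have : ∑ i ∈ Finset.range m, ((σ (c ^ i * g) : GL (Fin d) (ZMod (p ^ (k + 1)))) :
      Matrix (Fin d) (Fin d) (ZMod (p ^ (k + 1)))) ⟨0, hd⟩ ⟨0, hd⟩
      = (S * ((σ g : GL (Fin d) (ZMod (p ^ (k + 1)))) :
      Matrix (Fin d) (Fin d) (ZMod (p ^ (k + 1))))) ⟨0, hd⟩ ⟨0, hd⟩ := by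
    rw [hS, Finset.sum_mul, Matrix.sum_apply]
    apply Finset.sum_congr rfl
    intro i _
    rw [map_mul, map_pow]
    rfl
  rw [this, hS0, zero_mul]
  rfl

end Cfsg.Agent.Lib.Helper67.UF
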