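import Mathlib
import Cfsg.Agent.Lib.Helper38.UFDefs

set_option autoImplicit false

/-! Rung L4 of the ladder UF: from solutions mod `p^n` for all `n` to a rational solution. -/

namespace Cfsg.Agent.Lib.Helper67.UF

open Cfsg.Agent.Lib.Helper38.UF

/-- the integer matrix of the linear system `InU`. -/
noncomputable def sysT (G : Type*) [Group G] [DecidableEq G] : Matrix (G × G) G ℤ :=
  Matrix.of fun cg h => if cg.1 = 1 then 0 else
    ∑ i ∈ Finset.range (orderOf cg.1), if cg.1 ^ i * cg.2 = h then 1 else 0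

theorem sysT_mulVec {G R : Type*} [Group G] [Fintype G] [DecidableEq G] [CommRing R]
    (x : G → R) (c g : G) :
    (((sysT G).map (Int.castRingHom R)).mulVec x) (c, g)
      = if c = 1 then 0 else ∑ i ∈ Finset.range (orderOf c), x (c ^ i * g) := by
  unfold sysT
  simp only [Matrix.mulVec, dotProduct, Matrix.map_apply, Matrix.of_apply]
  by_cases hc : c = 1
  · simp [hc]
  · simp only [hc, if_false, map_sum]
    simp only [Finset.sum_mul]
    rw [Finset.sum_comm]
    apply Finset.sum_congr rfl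
    intro i _
    simp

theorem inU_iff_sysT {G R : Type*} [Group G] [Fintype G] [DecidableEq G] [CommRing R]
    (x : G → R) : InU x ↔ ((sysT G).map (Int.castRingHom R)).mulVec x = 0 := by
  constructor
  · intro h
    ext ⟨c, g⟩
    rw [sysT_mulVec]
    by_cases hc : c = 1
    · simp [hc]
    · simp [hc, h c hc g]
  · intro h c hc g
    have := congrFun h (c, g)
    rw [sysT_mulVec] at this
    simpa [hc] using this

theorem hasU_rat_of_padic {G : Type*} [Group G] [Finite G] (p : ℕ) [Fact p.Prime]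
    (h : ∀ n : ℕ, n ≠ 0 → ∃ x : G → ZMod (p ^ n), InU x ∧ x 1 = 1) :
    ∃ x : G → ℚ, InU x ∧ x ≠ 0 := by
  classical
  haveI : Fintype G := Fintype.ofFinite G
  set T := sysT G with hT
  set M : Matrix G G ℤ := T.transpose * T with hM
  have hmap : ∀ (R : Type) [CommRing R], M.map (Int.castRingHom R)
      = (T.map (Int.castRingHom R)).transpose * T.map (Int.castRingHom R) := by
    intro R _
    rw [hM, Matrix.map_mul, Matrix.transpose_map]
  have hdvd : ∀ n : ℕ, n ≠ 0 → ((p ^ n : ℕ) : ℤ) ∣ M.det := by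
    intro n hn
    obtain ⟨x, hx, hx1⟩ := h n hn
    have h1 : (M.map (Int.castRingHom (ZMod (p ^ n)))).mulVec x = 0 := by
      rw [hmap, ← Matrix.mulVec_mulVec, (inU_iff_sysT x).mp hx, Matrix.mulVec_zero]
    have h2 : ((M.map (Int.castRingHom (ZMod (p ^ n)))).adjugate
        * (M.map (Int.castRingHom (ZMod (p ^ n))))).mulVec x = 0 := by
      rw [← Matrix.mulVec_mulVec, h1, Matrix.mulVec_zero]
    rw [Matrix.adjugate_mul, Matrix.smul_mulVec, Matrix.one_mulVec] at h2
    have h3 := congrFun h2 1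
    simp only [Pi.smul_apply, hx1, smul_eq_mul, mul_one, Pi.zero_apply] at h3
    have h4 : (M.map (Int.castRingHom (ZMod (p ^ n)))).det
        = Int.castRingHom (ZMod (p ^ n)) M.det := by
      rw [RingHom.map_det]
      rfl
    rw [h4] at h3
    exact (ZMod.intCast_zmod_eq_zero_iff_dvd M.det (p ^ n)).mp h3
  have hdet : M.det = 0 := by
    have h1 := hdvd (M.det.natAbs + 1) (by omega)
    apply Int.eq_zero_of_abs_lt_dvd h1
    have h2 : M.det.natAbs + 1 < p ^ (M.det.natAbs + 1) :=
      Nat.lt_pow_self (Fact.out : p.Prime).one_lt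
    have h3 : |M.det| = (M.det.natAbs : ℤ) := Int.abs_eq_natAbs _
    rw [h3]
    exact_mod_cast (by omega : M.det.natAbs < p ^ (M.det.natAbs + 1))
  have hdetQ : (M.map (Int.castRingHom ℚ)).det = 0 := by
    have h4 : (M.map (Int.castRingHom ℚ)).det = Int.castRingHom ℚ M.det := by
      rw [RingHom.map_det]
      rfl
    rw [h4, hdet, map_zero]
  obtain ⟨v, hv0, hv⟩ := Matrix.exists_mulVec_eq_zero_iff.mpr hdetQ
  refine ⟨v, (inU_iff_sysT v).mpr ?_, hv0⟩
  rw [hmap] at hv
  have h5 : v ∈ LinearMap.ker ((T.map (Int.castRingHom ℚ)).transpose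
      * T.map (Int.castRingHom ℚ)).mulVecLin := by
    rw [LinearMap.mem_ker]
    exact hv
  rw [Matrix.ker_mulVecLin_transpose_mul_self, LinearMap.mem_ker] at h5
  exact h5

end Cfsg.Agent.Lib.Helper67.UF
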